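import Cfsg.Agent.H10.RF.B2

/-! A Sylow `2`-subgroup of `M24` and its elementary abelian subgroups. -/

set_option autoImplicit false
set_option linter.unusedSectionVars false
set_option linter.unusedVariables false
set_option maxRecDepth 100000
open Cfsg Subgroup H19 H0 H15
open scoped commutatorElement Pointwise
namespace H10.RF
local notation "cj" => H19.cj
variable {G : Type*} [Group G]

theorem l2A : l2chk ubA dcA 0x1b1f49a627ab9565b646820a4b8801 0x6a431a40b704eb25bce81984e51196 0xf0000000f000000000000f0000000f 0x6110000000000040004 = true := by
  decide +kernel
theorem mdA : MD ubA dcA tyA dpA 2 true := ⟨by decide +kernel, by decide +kernel, by decide +kernel, ⟨10, by decide +kernel⟩,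
  ⟨_, _, _, _, by decide +kernel, by decide +kernel, by decide +kernel, l2A⟩, fun _ => by decide +kernel⟩
theorem mdB : MD ubB dcB tyB dpB 40 false := ⟨by decide +kernel, by decide +kernel, by decide +kernel, ⟨2, by decide +kernel⟩,
  ⟨0x1b1f49a627ab9565b646820a4b8801, 0x6a431a40b704eb25bce81984e51196,
    0x5a000000a50000000000000000000000000000000000000000000000000000000000000000000000000000000000000000000000000000000000000000000000000000000000000000000000000000000000000000000000000000000000000000000000000000000000005a000000a5,
    0xa00000000002800000006008000, by decide +kernel, by decide +kernel, by decide +kernel, by decide +kernel⟩, fun h => absurd h (by decide)⟩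

end H10.RF
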