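import Cfsg.Agent.H10.RF.C
import Cfsg.Agent.H0.J.Lift

/-! Generators and indices inside the normalizer. -/

set_option autoImplicit false
set_option linter.unusedSectionVars false
set_option linter.unusedVariables false
set_option maxRecDepth 100000
open Cfsg Subgroup H19 H0 H15
open scoped commutatorElement Pointwise
namespace H10.RF
local notation "cj" => H19.cj
variable {G : Type*} [Group G] [Finite G]
variable {V : Subgroup G} {ρ : G → ℕ} {v : ℕ → G} {ub dc ty dp d0 gt : ℕ} {fl : Bool} {X Y : Subgroup G} {a b g n : G} {i j k : ℕ}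
local notation "T" => TG V ρ gT 4
local notation:max "Ai" n:max i:max => mv (mt ub dc (ρ n)) i
namespace IF0
variable (h : IF0 V ρ)
include h
theorem slp (hX : X ≤ N(V)) {Tb I n₀ n : ℕ} (d : slpOK Tb I n₀ n = true) (h0 : ∀ k < n₀, ∃ a ∈ X, ρ a = getP Tb k) :
    ∀ k < n₀ + n, ∃ a ∈ X, ρ a = getP Tb k := fun k => by
  induction k using Nat.strong_induction_on with
  | _ k ih =>
    intro hk
    by_cases hk0 : k < n₀
    · exact h0 k hk0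
    obtain ⟨k, rfl⟩ : ∃ k', k = n₀ + k' := ⟨k - n₀, by omega⟩
    have := (allTo_iff _ _).1 d k (by omega)
    simp only [band_iff, Nat.blt_eq, Nat.beq_eq, Nat.add_eq] at this
    obtain ⟨a, ha, ea⟩ := ih _ this.1 (by omega)
    obtain ⟨b, hb, eb⟩ := ih _ this.2.1 (by omega)
    exact ⟨_, mul_mem ha hb, by rw [h.mul _ (hX ha) _ (hX hb), ea, eb, this.2.2]⟩
theorem TGle {m : ℕ} (l : V ≤ X) (q : ∀ a ∈ N(V), ∀ j < m, ρ a = getP gt j → a ∈ X) : TG V ρ gt m ≤ X :=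
  (closure_le _).2 fun a ha => ha.2.elim (fun e => l ((h.ker ha.1).1 e)) fun ⟨j, hj, e⟩ => q a ha.1 j hj e
theorem TGle' {m : ℕ} (l : V ≤ X) (hX : X ≤ N(V)) (q : ∀ j < m, ∃ a ∈ X, ρ a = getP gt j) : TG V ρ gt m ≤ X :=
  h.TGle l fun a ha j hj e => let ⟨b, hb, eb⟩ := q j hj; h.memr l hb (hX hb) ha (eb.trans e.symm)
theorem mTG {m : ℕ} (ha : a ∈ N(V)) (hj : j < m) (e : ρ a = getP gt j) : a ∈ TG V ρ gt m :=
  Subgroup.subset_closure (by exact ⟨ha, .inr ⟨j, hj, e⟩⟩)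
theorem exTG {m : ℕ} (hj : j < m) (o : okM (getP gt j) = true) : ∃ a ∈ TG V ρ gt m, ρ a = getP gt j :=
  let ⟨a, ha, e⟩ := h.sur _ o; ⟨a, h.mTG ha hj e, e⟩
theorem odv {p : ℕ} (hp : p.Prime) (l : V ≤ X) (ha : a ∈ X) (na : a ∈ N(V)) (e : ppow (ρ a) p = pid) (n : ρ a ≠ pid) : p ∣ #X := by
  have := Fact.mk hp
  have : orderOf (qmk V ⟨a, na⟩) = p := orderOf_eq_prime (qpow ((h.ker (pow_mem na p)).1 ((h.pow na p).trans e)))
    fun q => n ((h.ker na).2 (qmk_eq_one.1 q))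
  exact this ▸ (orderOf_map_dvd _ _).trans (orderOf_coe (⟨a, na⟩ : N(V)) ▸ orderOf_dvd_card' ha)
theorem cm1' (ha : a ∈ N(V)) (hb : b ∈ N(V)) (e : pmul (ρ a) (ρ b) = pmul (ρ b) (ρ a)) : ⁅a, b⁆ ∈ V := by
  rw [← h.mul _ ha _ hb, ← h.mul _ hb _ ha, eq_comm, h.eqv _ (mul_mem hb ha) _ (mul_mem ha hb)] at e
  convert conj_mem_of_norm (mul_mem hb ha) e using 1
  simp only [commutatorElement_def]; group
theorem cjr (ha : a ∈ N(V)) (hb : b ∈ N(V)) (hg : g ∈ N(V)) (e : pmul (ρ g) (ρ a) = pmul (ρ b) (ρ g)) : ρ (g * a * g⁻¹) = ρ b := by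
  rw [← h.mul _ hg _ ha, ← h.mul _ hb _ hg, h.eqv _ (mul_mem hg ha) _ (mul_mem hb hg)] at e
  refine (h.eqv _ (mul_mem (mul_mem hg ha) (inv_mem hg)) _ hb).2 ?_
  convert conj_mem_of_norm hg e using 1
  group
end IF0
/-- a chain of stabilizers -/
def XC (v : ℕ → G) (X : Subgroup G) (k A l : ℕ) : Subgroup G := Nat.rec X (fun l Y => Y ⊓ cm (VS v k) {v (g12 A l)}) l
theorem XC_le {A : ℕ} (l : ℕ) : XC v X k A l ≤ X := by
  induction l with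
  | zero => exact le_rfl
  | succ l ih => exact inf_le_left.trans ih
theorem mem_XC {A l : ℕ} (ha : a ∈ X) (q : ∀ i < l, a ∈ cm (VS v k) {v (g12 A i)}) : a ∈ XC v X k A l := by
  induction l with
  | zero => exact ha
  | succ l ih => exact ⟨ih fun i hi => q i (by omega), q l (by omega)⟩
/-- one level of the chain -/
noncomputable def levk (ub dc k A R IM l o n : ℕ) : Bool := band (allTo (fun i => Nat.blt (g12 A i) 2048) (Nat.succ l))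
  (allTo (fun j => force (getP R (Nat.add o j)) fun g => band (okM g) (force (mt ub dc g) fun M => band (Nat.beq (mv M 1) 1)
    (band (allTo (fun i => Nat.blt (Nat.xor (mv M (g12 A i)) (g12 A i)) (Nat.pow 2 k)) l)
      (band (Nat.beq (mv M (g12 A l)) (g12 IM (Nat.add o j)))
        (allTo (fun i => Nat.ble (Nat.pow 2 k) (Nat.xor (g12 IM (Nat.add o i)) (g12 IM (Nat.add o j)))) j))))) n)
namespace IF
variable (h : IF V ρ v ub dc)
include h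
theorem lev {A R IM l o n : ℕ} (hk : k ≤ 11) (nC : N(V) ⊓ C[v 1] ≤ N(VS v k)) (d : levk ub dc k A R IM l o n = true) :
    n * #(XC v (N(V) ⊓ C[v 1]) k A (l + 1)) ≤ #(XC v (N(V) ⊓ C[v 1]) k A l) := by
  simp only [levk, force_eq, band_iff, allTo_iff, Nat.beq_eq, Nat.blt_eq, Nat.ble_eq, Nat.add_eq, Nat.pow_eq, xor_eq'] at d
  have ex := fun j (hj : j < n) => h.sur _ (d.2 j hj).1
  choose! r r1 r2 using ex
  have m : ∀ j < n, r j ∈ N(V) ⊓ C[v 1] := fun j hj => ⟨r1 j hj, (h.fixi (r1 j hj) (by decide)).2 (r2 j hj ▸ (d.2 j hj).2.1)⟩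
  refine cos_lb inf_le_left r (fun j hj => mem_XC (m j hj) fun i hi => mem_cm1.2 ⟨nC (m j hj),
    (h.cmS hk (r1 j hj) (d.1 i (by omega))).2 (r2 j hj ▸ (d.2 j hj).2.2.1 i hi)⟩) fun i hi j hj e => ?_
  have := conj_mem_of_norm (nC (m i hi)) (mem_cm1.1 e.2).2
  rw [show r i * ⁅(r i)⁻¹ * r j, v (g12 A l)⁆ * (r i)⁻¹ = r j * v (g12 A l) * (r j)⁻¹ * (r i * v (g12 A l) * (r i)⁻¹)⁻¹ by
    simp only [commutatorElement_def]; group, h.ac _ (r1 i hi), h.ac _ (r1 j hj), h.vinv, ← h.vx,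
    h.memVS hk (Nat.xor_lt_two_pow (n := 11) (mv_lt _ _) (mv_lt _ _)), r2 i hi, r2 j hj, (d.2 i hi).2.2.2.1,
    (d.2 j hj).2.2.2.1] at this
  by_contra ne
  rcases Nat.lt_or_gt_of_ne ne with c | c
  · exact ((d.2 j hj).2.2.2.2 i c).not_gt (Nat.xor_comm _ _ ▸ this)
  · exact ((d.2 i hi).2.2.2.2 j c).not_gt this
theorem le_XC {A : ℕ} (l : ℕ) : X ⊓ cm (VS v k) V ≤ XC v X k A l := fun a ha => mem_XC ha.1 fun i _ => cm_one (h.vm _) ha.2
theorem cmV (hk : k ≤ 11) (hn : n ∈ N(V)) (q : ∀ j < 11, Ai n (2 ^ j) ^^^ 2 ^ j < 2 ^ k) : ∀ u ∈ V, ⁅n, u⁆ ∈ VS v k := fun u hu => by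
  obtain ⟨i, hi, rfl⟩ := h.vs u hu
  have := map_lin (fun i => Ai n i ^^^ i) (by simp [mv_zero]) (fun a b => by simp only [mv_xor]; ac_rfl) (fun j => 2 ^ j) 11 i
  rw [lin_two_pow, Nat.mod_eq_of_lt (b := 2 ^ 11) hi] at this
  exact (h.cmS hk hn hi).2 (this ▸ lin_lt _ _ k q i)
theorem nclb {S : Set G} {p : ℕ → Bool} (q : ∀ i < 2048, p i = true → v i ∈ S) : cntTo2 p 32 64 ≤ S.ncard := by
  rw [cntTo2_eq, ← Set.ncard_coe_finset, ← Set.InjOn.ncard_image (f := v) fun i hi j hj => h.vi i (by simp at hi; exact hi.1) j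
    (by simp at hj; exact hj.1)]
  exact Set.ncard_le_ncard (by rintro _ ⟨i, hi, rfl⟩; simp at hi; exact q i hi.1 hi.2)
theorem cC (m : MD ub dc ty dp d0 fl) : cntTo2 (tb ty) 32 64 * #(N(V) ⊓ C[v 1]) ≤ 2048 * 244823040 := by
  rw [← h.card, ← cl_card N(V) (v 1)]
  refine Nat.mul_le_mul_right _ (h.nclb fun i hi t => ?_)
  obtain ⟨n, hn, e⟩ := h.tr1 m hi (tb_eq _ _ ▸ t)
  exact ⟨n⁻¹, inv_mem hn, by rw [← e]; group⟩
end IF
theorem sur_cm {E : Subgroup G} {z : G} (hz : z ∈ N(E)) (fp : E ⊓ C[z] = ⊥) : ∀ e ∈ E, ∃ f ∈ E, ⁅z, f⁆ = e := fun e he => by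
  obtain ⟨f, k⟩ := Finite.surjective_of_injective (f := fun f : E => (⟨⁅z, f⁆, cmN hz f.2⟩ : E)) (fun f g k => by
    have k : ⁅z, (f : G)⁆ = ⁅z, (g : G)⁆ := congrArg Subtype.val k
    refine Subtype.ext (inv_mul_eq_one.1 (mem_bot.1 (fp ▸ mem_inf.2 ⟨mul_mem (inv_mem f.2) g.2, cm1.1 ?_⟩)))
    rw [show ⁅(f : G)⁻¹ * g, z⁆ = (f : G)⁻¹ * ⁅z, (g : G)⁆⁻¹ * ⁅z, (f : G)⁆ * f by simp only [commutatorElement_def]; group, k,
      inv_mul_cancel_right, inv_mul_cancel]) ⟨e, he⟩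
  exact ⟨f, f.2, congrArg Subtype.val k⟩
theorem mkES {Q : Subgroup G} {z : G} (h1 : z ∈ Q) (h2 : z ≠ 1) (h3 : z * z = 1) (h4 : Q ≤ C[z]) (h5 : ∀ x ∈ Q, x * x ∈ zpowers z)
    (h6 : Q ⊓ C(Q) ≤ zpowers z) (h7 : 2 < #Q) : ES Q z :=
  ⟨h1, h2, h3, fun x hx y hy => (zp2 h3).1 (cmsq (h4.trans HZ) h5 hx hy), fun x hx => (zp2 h3).1 (h5 x hx),
    fun x hx => mem_cent1.1 (h4 hx), fun x hx k => (zp2 h3).1 (h6 ⟨hx, mem_cent.2 fun y hy => (k y hy).symm⟩), by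
    by_contra! k
    exact (card_le fun x hx => h6 ⟨hx, mem_cent.2 fun y hy => k y hy x hx⟩).not_gt (c2 h3 h2 ▸ h7)⟩
theorem emb {Q A : Subgroup G} {z : G} {m : ℕ} (L : LE Q z) (hc : #Q = 2 ^ (2 * m + 1)) (l : A ≤ Q) (s : ∀ a ∈ A, a * a = 1)
    (c : #A = 2 ^ (m + 1)) : HasEA (⊤ : Subgroup Q) (m + 1) ∧
      ∃ θ : N(Q) →* isometryGroup (ZMod 2) (quadFormPlus m (ZMod 2)), ∀ g, θ g = 1 ↔ (g : G) ∈ Q := by
  have p : HasEA (⊤ : Subgroup Q) (m + 1) := hasEA_top.2 ⟨A.subgroupOf Q, abelem2_iff.2 fun a ha => Subtype.ext (s a ha),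
    (card_subgroupOf' l).trans c⟩
  obtain ⟨e⟩ := (L.es.top.out_type hc).1 p
  refine ⟨p, e.toMonoidHom.comp ((QuotientGroup.mk' _).comp Q.normalizerMonoidHom), fun g => ?_⟩
  simp only [MonoidHom.comp_apply, MulEquiv.coe_toMonoidHom, map_eq_one_iff _ e.injective, QuotientGroup.mk'_apply,
    QuotientGroup.eq_one_iff]
  refine ⟨fun ⟨q, k⟩ => (Subgroup.mul_mem_cancel_left _ (inv_mem q.2)).1 (L.cent (le_cent1_iff.1 fun y hy =>
    mem_cent1_symm.1 (of_cjc ?_))), fun k => ⟨⟨g, k⟩, by ext; rfl⟩⟩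
  have : (q : G) * y * (q : G)⁻¹ = g * y * (g : G)⁻¹ := by
    have := congrArg Subtype.val (DFunLike.congr_fun k ⟨y, hy⟩)
    exact this
  rw [← cjcj, ← this]; group
end H10.RF
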