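import Cfsg.Agent.H10.RF.D1
import Cfsg.Agent.H10.RF.B3
import Cfsg.Agent.H15.T.H2A

/-! The extraspecial subgroup for the code module. -/

set_option autoImplicit false
set_option linter.unusedSectionVars false
set_option linter.unusedVariables false
set_option maxRecDepth 100000
open Cfsg Subgroup H19 H0 H15
open scoped commutatorElement Pointwise
namespace H10.RF
local notation "cj" => H19.cj
namespace CD
variable {G : Type*} [Group G] [Finite G] {V : Subgroup G} {ρ : G → ℕ} {v : ℕ → G} {K : Subgroup G} {a b d e g k l n q t u w x y : G}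
  {i j : ℕ}
local notation "T" => TG V ρ gT 4
local notation "CC" => N(V) ⊓ C[v 1]
local notation "UU" => VS v 5
local notation "LL" => TG V ρ gE 4
local notation "ZZ" => zpowers (v 1)
local notation:max "Ai" n:max i:max => mv (mt ubB dcB (ρ n)) i
/-- representative vanishing at the extra point -/
def nz (m : ℕ) : ℕ := if m.testBit 23 then m ^^^ 16777215 else m
theorem nz_xor (a b : ℕ) : nz (a ^^^ b) = nz a ^^^ nz b := by
  simp only [nz, Nat.testBit_xor]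
  cases a.testBit 23 <;> cases b.testBit 23 <;> simp [Nat.xor_assoc, Nat.xor_comm, Nat.xor_left_comm]
theorem nzk : (∀ i < 2048, isC (nz (U ubB i)) = true ∧ (nz (U ubB i)).testBit 23 = false ∧ D dcB (nz (U ubB i)) = i) ∧
    ∀ a < 4096, nz (U ubB (D dcB (enc a))) = nz (enc a) := by
  refine ⟨fun i hi => ?_, fun a ha => ?_⟩
  · have := (allTo2_iff (fun i => force (U ubB i) fun m => force (Bool.rec m (Nat.xor m 16777215) (tb m 23)) fun m => band (isC m)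
      (band (bnot (tb m 23)) (Nat.beq (D dcB m) i))) 32 64).1 (by decide +kernel) i hi
    simpa [band_iff, force_eq, bnot_iff, brec_eq_ite, tb_eq, nz] using this
  · have := (allTo2_iff (fun a => force (enc a) fun m => force (U ubB (D dcB m)) fun n => bor (Nat.beq m n)
      (Nat.beq (Nat.xor m 16777215) n)) 64 64).1 (by decide +kernel) a ha
    simp only [force_eq, bor_iff, Nat.beq_eq, xor_eq'] at this
    rcases this with e | e <;> rw [← e]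
    rw [nz_xor, show nz 16777215 = 0 by decide, Nat.xor_zero]
/-- a complement over the point stabilizer -/
structure KS (V : Subgroup G) (ρ : G → ℕ) (K : Subgroup G) : Prop where
  le : K ≤ N(V)
  dj : K ⊓ V = ⊥
  sur : ∀ n ∈ N(V), ap (ρ n) 23 = 23 → ∃ k ∈ K, ρ k = ρ n
theorem okM_code {σ : Equiv.Perm GolayPt} (k : σ ∈ M24) : okM (codeOf σ) = true := by
  have r := rep_codeOf σ
  simp only [okM, isM, valid, presC, band_iff, allTo_iff, Nat.beq_eq, Nat.blt_eq]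
  exact ⟨⟨⟨fun i hi => r.lt hi, S_inj (r.lt_act _) (by norm_num) ((r.smul_S _).symm.trans (smul_S_all σ))⟩, fun j hj =>
    (S_mem_cw_iff (r.lt_act _)).1 (r.smul_S _ ▸ smul_mem_cw k (S_mem_cw (by revert j; decide +kernel)))⟩, (Rep.code r).symm⟩
theorem W_act {σ : Equiv.Perm GolayPt} {g : ℕ} (r : Rep σ g) (m : ℕ) (p : GolayPt) : W (act g m) (σ p) = W m p := by
  have : σ • p ∈ S (act g m) ↔ p ∈ S m := r.smul_S m ▸ Finset.smul_mem_smul_finset_iff σ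
  simp only [W, ← mem_S]
  exact if_congr this rfl rfl
theorem nz_act {σ : Equiv.Perm GolayPt} {g : ℕ} (r : Rep σ g) (k : σ ∈ M24) (f : σ none = none) (hi : i < 2048) :
    nz (U ubB (mv (mt ubB dcB g) i)) = act g (nz (U ubB i)) := by
  have c := nzk.1 i hi
  have e2 : mv (mt ubB dcB g) i = D dcB (act g (nz (U ubB i))) := by
    rw [mv_mt, nz]
    split_ifs
    · rw [act_xor, D_xor, S_inj (r.lt_act 16777215) (by norm_num) ((r.smul_S _).symm.trans (smul_S_all _)),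
        show D dcB 16777215 = 0 by decide +kernel, Nat.xor_zero]
    · rfl
  obtain ⟨z, hz, ez⟩ := exists_enc_of_isC ((S_mem_cw_iff (r.lt_act _)).1 (r.smul_S _ ▸ smul_mem_cw k (S_mem_cw c.1)))
  have b : (act g (nz (U ubB i))).testBit 23 = false := by
    have := W_act r (nz (U ubB i)) none
    rw [f] at this
    simpa [W, show ix none = 23 from rfl, c.2.1] using this
  rw [e2, ez, nzk.2 z hz, ← ez, nz, b, if_neg (by simp)]
variable (h : IF V ρ v ubB dcB)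
include h
theorem exK : ∃ K, KS V ρ K := by
  classical
  have rp : ∀ a ∈ N(V), Rep (P (ρ a)) (ρ a) ∧ P (ρ a) ∈ M24 ∧ codeOf (P (ρ a)) = ρ a := fun a ha => by
    obtain ⟨σ, k, r⟩ := h.rep a ha
    rw [r.P_eq, Rep.code r, ← h.one, ← h.mul _ ha _ (one_mem _), mul_one]; exact ⟨r, k, rfl⟩
  let μ : N(V) →* Equiv.Perm GolayPt := MonoidHom.mk' (fun a => P (ρ a)) fun a b => by
    have := ((rp a a.2).1.mul (rp b b.2).1).P_eq
    rw [← h.mul _ a.2 _ b.2] at this; exact this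
  let Y : Subgroup N(V) := Spor.M23.comap μ
  let π : Y →* Spor.M23 := MonoidHom.mk' (fun a => ⟨_, a.2⟩) fun a b => Subtype.ext (map_mul μ _ _)
  have mY : ∀ a : N(V), a ∈ Y ↔ ap (ρ a) 23 = 23 := fun a => by
    have := (rp a a.2).1.app (i := 23) (by decide)
    refine ⟨fun k => pt_inj ((rp a a.2).1.lt (by decide)) (by decide) (this.symm.trans k.2), fun k => ⟨(rp a a.2).2.1, ?_⟩⟩
    rw [k] at this; exact this
  have ke : ∀ a : Y, a ∈ π.ker ↔ (a : G) ∈ V := fun a => by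
    rw [← h.ker a.1.2]
    refine ⟨fun k => ?_, fun k => Subtype.ext (Rep.eq_one (k ▸ (rp _ a.1.2).1))⟩
    have k : P (ρ a) = 1 := congrArg Subtype.val k
    rw [← (rp _ a.1.2).2.2, k, code_one]
  choose! ι ι1 ι2 using h.vs
  have ιv : ∀ i < 2048, ι (v i) = i := fun i hi => h.vi _ (ι1 _ (h.vm i)) _ hi (ι2 _ (h.vm i))
  obtain ⟨_, g, -, L⟩ := H15.H2.lets
  obtain ⟨H, hH⟩ := H15.H2.code_split (π := π) (fun σ => by
      obtain ⟨a, ha, e⟩ := h.sur _ (okM_code σ.2.1)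
      have : μ ⟨a, ha⟩ = σ := (e ▸ rep_codeOf _ : Rep σ.1 (ρ a)).P_eq
      exact ⟨⟨⟨a, ha⟩, by rw [mem_comap, this]; exact σ.2⟩, Subtype.ext this⟩)
    (ω := fun a => W (nz (U ubB (ι a)))) (fun a ha => by
      have := nzk.1 _ (ι1 _ ((ke a).1 ha))
      exact ⟨W_mem_of_isC this.1, by simp [W, show ix none = 23 from rfl, this.2.1]⟩)
    (fun a ha b hb => by
      rw [← W_xor, ← nz_xor, ← U_xor, ← ιv _ (Nat.xor_lt_two_pow (n := 11) (ι1 _ ((ke a).1 ha)) (ι1 _ ((ke b).1 hb))), h.vx,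
        ι2 _ ((ke a).1 ha), ι2 _ ((ke b).1 hb)]; rfl)
    (fun u a ha => by
      have m := (ke _).1 (π.normal_ker.conj_mem' a ha u)
      have r := (rp _ u.1.2).1
      have e : (a : G) = v (Ai u (ι (u⁻¹ * a * u : Y))) := by rw [← h.ac _ u.1.2, ι2 _ m]; simp [mul_assoc]
      funext p
      rw [Function.comp_apply, e, ιv _ (mv_lt _ _), nz_act r (rp _ u.1.2).2.1 u.2.2 (ι1 _ m)]
      exact (W_act r _ p).symm)
    (fun w hw => by
      obtain ⟨m, c, rfl⟩ := exists_isC_of_mem hw.1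
      obtain ⟨z, hz, rfl⟩ := exists_enc_of_isC c
      have n := h.VN (h.vm (D dcB (enc z)))
      have k := (h.ker n).2 (h.vm _)
      refine ⟨⟨⟨_, n⟩, (mY _).2 (by rw [k]; decide +kernel)⟩, (ke _).2 (h.vm _), ?_⟩
      have b : (enc z).testBit 23 = false := by simpa [W, show ix none = 23 from rfl] using hw.2
      simp only [ιv _ (D_lt _ _), nzk.2 z hz]
      rw [nz, b, if_neg (by simp)])
    (fun a ha b hb e => by
      have c1 := nzk.1 _ (ι1 _ ((ke a).1 ha))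
      have c2 := nzk.1 _ (ι1 _ ((ke b).1 hb))
      have := congrArg (D dcB) (W_inj (isC_lt c1.1) (isC_lt c2.1) e)
      rw [c1.2.2, c2.2.2] at this
      exact Subtype.ext (Subtype.ext (by rw [← ι2 _ ((ke a).1 ha), this, ι2 _ ((ke b).1 hb)])))
    (L H15.XTH2A.lt).2 H15.XTH2A.en H15.XTH2A.cert
  refine ⟨(H.map Y.subtype).map N(V).subtype, map_subtype_le _, le_bot_iff.1 ?_, fun n hn e => ?_⟩
  · rintro _ ⟨⟨_, ⟨a, ha, rfl⟩, rfl⟩, k⟩
    have := hH.disjoint.le_bot ⟨(ke a).2 k, ha⟩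
    rw [mem_bot] at this
    simp [this]
  · obtain ⟨⟨a, b⟩, k⟩ := hH.2 ⟨⟨n, hn⟩, (mY _).2 e⟩
    have k : (a : G) * b = n := congrArg (fun y : Y => (y : G)) k
    exact ⟨_, ⟨_, ⟨_, b.2, rfl⟩, rfl⟩, k ▸ (h.Vmul b.1.1.2 ((ke _).1 a.2)).symm⟩
theorem mC (ha : a ∈ N(V)) {g : ℕ} (e : ρ a = g) (c : inC g = true) : a ∈ CC :=
  ⟨ha, (h.fixi ha (by decide)).2 (e ▸ Nat.beq_eq ▸ ((band_iff _ _).1 c).2)⟩
theorem exC {g : ℕ} (c : inC g = true) : ∃ a ∈ CC, ρ a = g :=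
  let ⟨a, ha, e⟩ := h.sur g ((band_iff _ _).1 c).1; ⟨a, mC h ha e c, e⟩
theorem Cg : CC = TG V ρ gC 2 ∧ #(CC) = 2048 * 322560 := by
  have d := ckC
  simp only [allTo_iff, force_eq, band_iff (band _ _), band_iff (inC _), Nat.beq_eq] at d
  obtain ⟨p1, p2, p3, p4, p5, p6, -, -, -, -, -, -, -, -, -, -, p7, -⟩ := ckp
  have l : TG V ρ gC 2 ≤ CC := h.TGle (h.VT.trans (le_inf h.TN (h.TC mdB))) fun a ha j hj e => mC h ha e (d j hj).1.1
  have g := fun j hj => h.exTG (gt := gC) (m := 2) hj ((band_iff _ _).1 (d j hj).1.1).1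
  have s := h.slp h.TN ckS fun k hk => by rw [← (d k hk).1.2]; exact g k hk
  have d1 := card_dvd (h.TGle' (gt := gT) (m := 4) h.VT h.TN fun j hj => by rw [← (p1 j hj).1]; exact s _ (p1 j hj).2)
  have d2 := card_dvd (h.TGle' (gt := g9) (m := 2) h.VT h.TN fun j hj => by rw [← p2 j hj]; exact s _ (by omega))
  obtain ⟨a, ha, ea⟩ := s 106 (by decide)
  obtain ⟨b, hb, eb⟩ := g 0 (by decide)
  have d3 := h.odv (p := 5) (by norm_num) h.VT ha (h.TN ha) (by rw [ea, p3]) (by rw [ea]; exact p4)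
  have d4 := h.odv (p := 7) (by norm_num) h.VT hb (h.TN hb) (by rw [eb, p5]) (by rw [eb]; exact p6)
  have c := h.cC mdB
  rw [h.cT] at d1
  rw [(h.tspec ck9 (by decide) (by decide)).2.2] at d2
  rw [p7] at c
  have := Nat.le_of_dvd (card_pos _) (Nat.Coprime.mul_dvd_of_dvd_of_dvd (by norm_num) (Nat.Coprime.mul_dvd_of_dvd_of_dvd
    (by norm_num) (Nat.Coprime.mul_dvd_of_dvd_of_dvd (by norm_num) d1 ((by norm_num : 9 ∣ 3 * 3 * 2048).trans d2)) d3) d4)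
  clear d1 d2 d3 d4
  have e := eq_of_le_of_card_ge l (by omega)
  exact ⟨e.symm, by rw [e] at this; omega⟩
theorem VC : V ≤ CC := h.VT.trans (le_inf h.TN (h.TC mdB))
theorem nV (l : K ≤ V) : V ≤ N(K) := norms_of_cents (cents_mono h.cent.ge le_rfl l)
theorem CU : CC ≤ N(UU) := (Cg h).1 ▸ h.TGle (nV h h.VS_le) fun a ha j hj e => h.nVS ha fun i hi => by
  have d := ckC
  simp only [allTo_iff, force_eq, band_iff (band _ _), Nat.blt_eq] at d
  exact e ▸ (d j hj).2 i hi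
theorem LC : LL ≤ CC ⊓ cm UU V := h.TGle (le_inf (VC h) fun a ha => ⟨nV h h.VS_le ha, fun b hb =>
    cm1.2 (cent_le_cent1 hb (h.cent.ge ha)) ▸ one_mem _⟩) fun a ha j hj e => by
  have d := ckE3
  simp only [allTo_iff, force_eq, band_iff (band _ _), band_iff (inC _), Nat.blt_eq] at d
  have m := mC h ha e (d j hj).1.1
  exact ⟨m, CU h m, h.cmV (by decide) ha fun i hi => e ▸ (d j hj).1.2 i hi⟩
theorem cL : #LL = 16 * 2048 := (h.tspec ckE (by decide) (by decide)).2.2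
theorem Le : CC ⊓ cm UU V = LL := (eq_of_le_of_card_ge (LC h) (by
  have a0 := h.lev (by decide) (CU h) lv0
  have a1 := h.lev (by decide) (CU h) lv1
  have a2 := h.lev (by decide) (CU h) lv2
  have a3 := h.lev (by decide) (CU h) lv3
  have a4 := h.lev (by decide) (CU h) lv4
  have := card_le (h.le_XC (X := CC) (k := 5) (A := lA) 5)
  rw [show XC v (CC) 5 lA 0 = CC from rfl, (Cg h).2] at a0
  rw [cL h]; simp only [Nat.reduceAdd] at *; omega)).symm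
theorem CL : CC ≤ N(LL) := Le h ▸ norms_inf le_normalizer (cm_nms (CU h) inf_le_left)
theorem LT : LL ≤ T := h.TGle h.VT fun a ha j hj e => by
  have d := ckE3
  simp only [allTo_iff, force_eq, band_iff, Nat.blt_eq, Nat.beq_eq] at d
  exact h.mT ha (d j hj).2.1 (e.trans (d j hj).2.2)
theorem Lk (hl : l ∈ LL) : ∃ k < 16, ρ l = getP tE k ∧ ap (ρ l) 23 = 23 ∧ pmul (ρ l) (ρ l) = pid ∧
    (∀ i < 5, Ai l (2 ^ i) ^^^ 2 ^ i < 2) ∧ (l ∈ V ∨ (pmul cx (ρ l) ≠ pmul (ρ l) cx ∧ pmul cy (ρ l) ≠ pmul (ρ l) cy) ∧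
    ((∃ i < 32, Ai l i ≠ i) ∧ inK (getP tK k) = true ∧ pmul (getP tK k) (ρ l) = pmul (getP tE 1) (getP tK k)) ∧
    ∀ c < 8, ∀ d < 8, (c = 0 ∨ d = 0) ∨ c = d ∨ 2 ≤ Ai l (mv f3 c) ^^^ mv f3 c ∨ 2 ≤ Ai l (mv f3 d) ^^^ mv f3 d) := by
  obtain ⟨k, hk, e⟩ := (h.tspec ckE (by decide) (by decide)).1 l hl
  have d := (allTo_iff _ _).1 ckE2 k hk
  simp only [allTo_iff, anyTo_iff, force_eq, band_iff (band _ _), band_iff (Nat.beq _ _), band_iff (bnot _), band_iff (allTo _ _),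
    band_iff (anyTo _ _), band_iff (inK _), bor_iff, bnot_iff, Nat.blt_eq, Nat.beq_eq, Nat.ble_eq, cv, xor_eq', Nat.pow_eq] at d
  rw [← e] at d
  exact ⟨k, hk, e, d.1.1, d.1.2, d.2.1, d.2.2.imp_left fun q => (h.ker (h.TN hl)).1 (by rw [e, q]; decide +kernel)⟩
theorem LU (hl : l ∈ LL) (hu : u ∈ UU) : ⁅l, u⁆ ∈ ZZ := by
  obtain ⟨i, hi, rfl⟩ := h.exVS hu
  obtain ⟨k, -, -, -, -, q, -⟩ := Lk h hl
  have := map_lin (fun i => Ai l i ^^^ i) (by simp [mv_zero]) (fun a b => by simp only [mv_xor]; ac_rfl) (fun j => 2 ^ j) 5 i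
  rw [lin_two_pow, Nat.mod_eq_of_lt hi] at this
  rw [← h.VS1, h.cmS (by decide) (h.TN hl) (by omega), this]
  exact lin_lt _ _ 1 q i
variable (kk : KS V ρ K)
include kk
local notation "EE" => K ⊓ LL
local notation "QQ" => UU ⊔ K ⊓ LL
theorem inj (ha : a ∈ K) (hb : b ∈ K) (e : ρ a = ρ b) : a = b :=
  inv_mul_eq_one.1 (mem_bot.1 (kk.dj ▸ mem_inf.2 ⟨mul_mem (inv_mem ha) hb, (h.eqv _ (kk.le ha) _ (kk.le hb)).1 e⟩))
theorem dec (hn : n ∈ CC) (e : ap (ρ n) 23 = 23) : ∃ w ∈ V, ∃ k ∈ K ⊓ CC, n = w * k ∧ ρ k = ρ n := by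
  obtain ⟨k, hk, q⟩ := kk.sur n hn.1 e
  have := conj_mem_of_norm (kk.le hk) ((h.eqv _ (kk.le hk) _ hn.1).1 q)
  exact ⟨_, this, k, ⟨hk, h.memr (VC h) hn hn.1 (kk.le hk) q.symm⟩, by group, q⟩
theorem exk {g : ℕ} (c : inK g = true) : ∃ k ∈ K ⊓ CC, ρ k = g := by
  rw [inK, band_iff, Nat.beq_eq] at c
  obtain ⟨a, ha, rfl⟩ := exC h c.1
  obtain ⟨-, -, k, hk, -, e⟩ := dec h kk ha c.2
  exact ⟨k, hk, e⟩
theorem decL (hl : l ∈ LL) : ∃ w ∈ V, ∃ e ∈ EE, l = w * e := by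
  obtain ⟨_, -, -, q, -⟩ := Lk h hl
  obtain ⟨w, hw, k, hk, rfl, -⟩ := dec h kk (LC h hl).1 q
  exact ⟨w, hw, k, ⟨hk.1, (Subgroup.mul_mem_cancel_left _ (h.VT hw)).1 hl⟩, rfl⟩
theorem EU : EE ≤ N(UU) := inf_le_right.trans ((LC h).trans (inf_le_left.trans (CU h)))
theorem Esq (he : e ∈ EE) : e * e = 1 := by
  obtain ⟨_, -, -, -, q, -⟩ := Lk h he.2
  exact inj h kk (mul_mem he.1 he.1) (one_mem _) (by rw [h.mul _ (kk.le he.1) _ (kk.le he.1), q, h.one])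
theorem QL : QQ ≤ LL := sup_le (h.VS_le.trans h.VT) inf_le_right
theorem decQ (hq : q ∈ QQ) : ∃ u ∈ UU, ∃ e ∈ EE, q = u * e := (mem_sup_of_norm (EU h kk)).1 hq
theorem E1 (he : e ∈ EE) (hv : e ∈ V) : e = 1 := mem_bot.1 (kk.dj ▸ mem_inf.2 ⟨he.1, hv⟩)
theorem QV : QQ ⊓ V = UU := le_antisymm (fun q hq => by
  obtain ⟨u, hu, e, he, rfl⟩ := decQ h kk hq.1
  rwa [E1 h kk he ((Subgroup.mul_mem_cancel_left _ (h.VS_le hu)).1 hq.2), mul_one]) (le_inf le_sup_left h.VS_le)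
theorem LQ : V ⊔ QQ = LL := le_antisymm (sup_le h.VT (QL h kk)) fun l hl => by
  obtain ⟨w, hw, e, he, rfl⟩ := decL h kk hl
  exact mul_mem (mem_sup_left hw) (mem_sup_right (mem_sup_right he))
theorem cQ : #(QQ) = 512 := by
  have := card_sup_mul_inf ((QL h kk).trans h.TN)
  rw [LQ h kk, inf_comm, QV h kk, h.cVS (by decide), cL h, h.cV] at this
  omega
theorem VQ : V ≤ N(QQ) := fun w hw => mem_norm_of_cj_le fun y hy => by
  obtain ⟨y, k, rfl⟩ := mem_cj'.1 hy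
  exact cjcm w y ▸ mul_mem (mem_sup_left (cms ((LC h (QL h kk k)).2.2 w hw))) k
theorem KE : K ⊓ CC ≤ N(EE) := norms_inf (inf_le_left.trans le_normalizer) (inf_le_right.trans (CL h))
theorem KQ : K ⊓ CC ≤ N(QQ) := norms_sup (inf_le_right.trans (CU h)) (KE h kk)
theorem fQ (hn : n ∈ CC) (e : ap (ρ n) 23 = 23) : n ∈ N(QQ) := by
  obtain ⟨w, hw, k, hk, rfl, -⟩ := dec h kk hn e
  exact mul_mem (VQ h kk hw) (KQ h kk hk)
theorem xy (hx : x ∈ CC) (hy : y ∈ CC) (ex : ρ x = cx) (ey : ρ y = cy) (hl : l ∈ LL) : ⁅x, ⁅y, l⁆⁆ ∈ QQ ∧ ⁅y, ⁅x, l⁆⁆ ∈ QQ := by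
  have k : ∀ n ∈ CC, ap (ρ n) 23 = 23 → ∀ i, ∀ q ∈ QQ, ∃ r ∈ QQ, ⁅n, v i * q⁆ = v (Ai n i ^^^ i) * r := fun n hn e i q hq =>
    ⟨_, conj_mem_of_norm (VQ h kk (h.vm i)) (cmN (fQ h kk hn e) hq), by rw [cmr, h.cmv hn.1]⟩
  obtain ⟨w, hw, e, he, rfl⟩ := decL h kk hl
  obtain ⟨i, hi, rfl⟩ := h.vs w hw
  have d := ckV
  simp only [force_eq, allTo2_iff, band_iff, Nat.blt_eq, cv, xor_eq'] at d
  have d := (d i hi).1.2
  have x23 : ap (ρ x) 23 = 23 := by rw [ex]; decide +kernel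
  have y23 : ap (ρ y) 23 = 23 := by rw [ey]; decide +kernel
  have c := h.cm1' hx.1 hy.1 (by rw [ex, ey]; decide +kernel)
  constructor
  · obtain ⟨r, hr, e1⟩ := k y hy y23 i e (mem_sup_right he)
    obtain ⟨r, hr, e2⟩ := k x hx x23 _ r hr
    rw [e1, e2, ex, ey]
    exact mul_mem (mem_sup_left (h.mVS d)) hr
  · obtain ⟨r, hr, e1⟩ := k x hx x23 i e (mem_sup_right he)
    obtain ⟨r, hr, e2⟩ := k y hy y23 _ r hr
    rw [e1, e2]
    refine mul_mem (mem_sup_left (h.mVS ?_)) hr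
    have := h.same (mul_mem hx.1 hy.1) (mul_mem hy.1 hx.1) (by rw [h.mul _ hx.1 _ hy.1, h.mul _ hy.1 _ hx.1, h.cmul hx.1 hy.1 c])
      (h.vm i)
    rw [h.ac _ (mul_mem hx.1 hy.1), h.ac _ (mul_mem hy.1 hx.1), h.Amul hx.1 hy.1, h.Amul hy.1 hx.1] at this
    rw [← ex, ← ey, mv_xor, h.vi _ (mv_lt _ _) _ (mv_lt _ _) this] at d
    rw [mv_xor]
    exact lt_of_eq_of_lt (by ac_rfl) d
theorem fp (hx : x ∈ CC) (ex : ρ x = cx ∨ ρ x = cy) (hl : l ∈ LL) (c : ⁅x, l⁆ ∈ V) : l ∈ V := by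
  obtain ⟨_, -, -, -, -, -, q | q⟩ := Lk h hl
  · exact q
  have := h.cmul hx.1 (h.TN hl) c
  rcases ex with ex | ex <;> rw [ex] at this
  exacts [absurd this q.1.1, absurd this q.1.2]
theorem CQ : CC ≤ N(QQ) := by
  obtain ⟨-, -, -, -, -, -, -, p1, p2, p3, p4, p5, p6, p7, p8, p9, -⟩ := ckp
  obtain ⟨x, hx, ex⟩ := exk h kk p5
  obtain ⟨y, hy, ey⟩ := exk h kk p6
  obtain ⟨g, hg, eg⟩ := exC h p7
  have s := fun x (hx : x ∈ K ⊓ CC) ex => sur_cm (KE h kk hx) (le_bot_iff.1 fun e he => mem_bot.2 (E1 h kk he.1 (fp h kk hx.2 ex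
    he.1.2 (cm1.2 (mem_cent1_symm.1 he.2) ▸ one_mem _))))
  have gQ : g ∈ N(QQ) := mem_norm_of_cj_le (by
    rw [cj_sup, cj_of_mem_norm (CU h hg)]
    refine sup_le le_sup_left fun e h0 => ?_
    obtain ⟨e, h1, rfl⟩ := mem_cj'.1 h0
    obtain ⟨e, h2, rfl⟩ := s y hy (.inr ey) e h1
    obtain ⟨e, he, rfl⟩ := s x hx (.inl ex) e h2
    rw [cmc, cmc]
    have m := fun x (hx : x ∈ CC) => mul_mem (mul_mem hg hx) (inv_mem hg)
    exact (xy h kk (m y hy.2) (m x hx.2) ((h.cjr hy.2.1 hx.2.1 hg.1 (by rw [ex, ey, eg, p9])).trans ex)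
      ((h.cjr hx.2.1 hy.2.1 hg.1 (by rw [ex, ey, eg, p8])).trans ey) (conj_mem_of_norm (CL h hg) he.2)).1)
  have d := ckC
  simp only [allTo_iff, force_eq, band_iff (band _ _), band_iff (inC _)] at d
  refine (Cg h).1.le.trans (h.TGle (VQ h kk) fun a ha j hj e => ?_)
  interval_cases j
  · exact fQ h kk (mC h ha e (d 0 hj).1.1) (e ▸ p1)
  obtain ⟨k1, h1, e1⟩ := exk h kk p3
  obtain ⟨k2, h2, e2⟩ := exk h kk p4
  have m := mul_mem h1.2.1 (mul_mem hg.1 h2.2.1)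
  exact h.memr (VQ h kk) (mul_mem (KQ h kk h1) (mul_mem gQ (KQ h kk h2))) m ha (by
    rw [h.mul _ h1.2.1 _ (mul_mem hg.1 h2.2.1), h.mul _ hg.1 _ h2.2.1, e1, e2, eg, p2, e])
theorem cW : QQ ⊓ C(UU) ≤ V := fun q hq => by
  obtain ⟨_, -, -, -, -, -, k | k⟩ := Lk h (QL h kk hq.1)
  · exact k
  obtain ⟨⟨i, hi, n⟩, -⟩ := k.2.1
  exact absurd ((h.fixi (h.TN (QL h kk hq.1)) (by omega)).1 (cent_le_cent1 (h.mVS hi) hq.2)) n
theorem exE (hj : j < 4) : ∃ e ∈ EE, ρ e = getP gE j := by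
  have d := ckE3
  simp only [allTo_iff, force_eq, band_iff, inC] at d
  obtain ⟨a, ha, e⟩ := h.exTG hj (d j hj).1.1.1
  obtain ⟨w, hw, b, hb, rfl⟩ := decL h kk ha
  exact ⟨b, hb, (h.Vmul (kk.le hb.1) hw).symm.trans e⟩
theorem vQ : V ⊓ cm ZZ (QQ : Subgroup G) ≤ QQ := fun w hw => by
  obtain ⟨i, hi, rfl⟩ := h.vs w hw.1
  have d := ckV
  simp only [force_eq, allTo2_iff, band_iff, bimp_iff, allL_iff, Nat.blt_eq, cv, xor_eq', List.mem_cons, List.not_mem_nil, or_false,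
    forall_eq_or_imp, forall_eq] at d
  have k : ∀ j < 4, mv (M (getP gE j)) i ^^^ i < 2 := fun j hj => by
    obtain ⟨e, he, q⟩ := exE h kk hj
    exact q ▸ (h.cmS (k := 1) (by decide) (kk.le he.1) hi).1 (h.VS1 ▸ cms (hw.2.2 e (mem_sup_right he)))
  exact mem_sup_left (h.mVS ((d i hi).1.1 ⟨k 0 (by decide), k 1 (by decide), k 2 (by decide), k 3 (by decide)⟩))
theorem QC : QQ ≤ CC := (QL h kk).trans ((LC h).trans inf_le_left)
theorem zU : v 1 ∈ UU := h.mVS (by decide)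
theorem cUE (hu : u ∈ UU) (c : ∀ e ∈ EE, u ∈ C[e]) : u ∈ ZZ := by
  by_contra n
  obtain ⟨i, hi, rfl⟩ := h.exVS hu
  have : ∀ i < 32, 2 ≤ i → ∃ j < 4, mv (M (getP gE j)) i ≠ i := by decide +kernel
  obtain ⟨j, hj, k⟩ := this i hi (by by_contra q; exact n (h.VS1 ▸ h.mVS (k := 1) (by omega)))
  obtain ⟨e, he, q⟩ := exE h kk hj
  exact k (q ▸ (h.fixi (kk.le he.1) (by omega)).1 (mem_cent1_symm.1 (c e he)))
theorem es : ES QQ (v 1) := mkES (mem_sup_left (zU h kk)) (h.s1 mdB) (h.vv 1) ((QC h kk).trans inf_le_right) (fun q hq => by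
    obtain ⟨u, hu, e, he, rfl⟩ := decQ h kk hq
    convert cms (LU h he.2 hu) using 1
    rw [commutatorElement_def, inv_eq_of_mul_eq_one_right (Esq h kk he), inv_eq_of_mul_eq_one_right (h.sq _ (h.VS_le hu)), ← mul_assoc])
  (fun q hq => cUE h kk ((QV h kk).le ⟨hq.1, cW h kk ⟨hq.1, cent_mono le_sup_left hq.2⟩⟩) fun e he =>
    cent_le_cent1 (mem_sup_right he) hq.2) (by rw [cQ h kk]; decide)
theorem qs : QS V ρ v QQ (VS (fun c => v (mv f3 c)) 3) 1 := by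
  have x3 : ∀ a ∈ VS (fun c => v (mv f3 c)) 3, ∃ c < 8, v (mv f3 c) = a := fin_ind ⟨0, by decide, by rw [mv_zero, h.v0]⟩ (by
    rintro _ _ ⟨j, hj, rfl⟩ ⟨i, hi, rfl⟩; exact ⟨_, Nat.xor_lt_two_pow (n := 3) hi hj, by rw [mv_xor, h.vx]⟩)
  have z : v (mv f3 0) ∈ QQ := by rw [mv_zero, h.v0]; exact one_mem _
  refine ⟨es h kk, (QL h kk).trans (LT h), CQ h kk, (QV h kk).symm ▸ cW h kk, vQ h kk, one_mem _, one_pow _,
    by rw [QV h kk, Le h, LQ h kk]; exact le_sup_left, fun a ha => let ⟨c, _, e⟩ := x3 a ha; e ▸ h.vm _, ?_,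
    fun a ha b hb na nb nab q hq => ?_, .inl rfl, by rw [cQ h kk]; decide⟩
  · have : VS (fun c => v (mv f3 c)) 3 ⊓ QQ = ⊥ := le_bot_iff.1 fun a ha => by
      obtain ⟨c, hc, rfl⟩ := x3 a ha.1
      by_cases e : c = 0
      · rw [e, mv_zero, h.v0]; exact one_mem _
      · exact absurd ((h.memVS (by decide) (mv_lt _ _)).1 ((QV h kk).le ⟨ha.2, h.vm _⟩)) (ckO.2.2.1 c hc e).not_gt
    rw [this, card_bot]
    refine lt_of_lt_of_le (by decide +kernel) (h.nclb (p := fun i => anyTo (fun c => Nat.beq (mv f3 c) i) 8) fun i _ k => ?_)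
    obtain ⟨c, hc, e⟩ := (anyTo_iff _ _).1 k
    exact Subgroup.subset_closure ⟨c, hc, congrArg v (Nat.eq_of_beq_eq_true e)⟩
  obtain ⟨c, hc, rfl⟩ := x3 a ha
  obtain ⟨d, hd, rfl⟩ := x3 b hb
  have n := h.TN (QL h kk hq.1.1)
  obtain ⟨_, -, -, -, -, -, k | k⟩ := Lk h (QL h kk hq.1.1)
  · exact k
  rcases k.2.2 c hc d hd with (rfl | rfl) | rfl | k | k
  · exact absurd z na
  · exact absurd z nb
  · exact absurd (h.vv _ ▸ one_mem _) nab
  · exact absurd ((h.cmS (k := 1) (by decide) n (mv_lt _ _)).1 (h.VS1 ▸ (mem_cm1.1 hq.1.2).2)) k.not_gt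
  · exact absurd ((h.cmS (k := 1) (by decide) n (mv_lt _ _)).1 (h.VS1 ▸ (mem_cm1.1 hq.2).2)) k.not_gt
end CD
end H10.RF
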