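import Cfsg.Agent.H10.RF.E1
import Cfsg.Agent.H10.RF.B3

/-! The extraspecial subgroup for the cocode module. -/

set_option autoImplicit false
set_option linter.unusedSectionVars false
set_option linter.unusedVariables false
set_option maxRecDepth 100000
open Cfsg Subgroup H19 H0 H15
open scoped commutatorElement Pointwise
namespace H10.RF
local notation "cj" => H19.cj
namespace CA
variable {G : Type*} [Group G] [Finite G] {V : Subgroup G} {ρ : G → ℕ} {v : ℕ → G} {A B D E F J N Q X Y : Subgroup G}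
  {a b c d e g k l n q t u w x y : G} {i j : ℕ}
local notation "T" => TG V ρ gT 4
local notation "HH" => C[v 1]
local notation "CC" => N(V) ⊓ C[v 1]
local notation "WW" => VS v 7
local notation "UU" => VS v 5
local notation "LL" => TG V ρ gR 6
local notation "ZZ" => zpowers (v 1)
local notation "KK" => N(V) ⊓ C[v 1] ⊓ cm (VS v 7) V
local notation:max "Ai" n:max i:max => mv (mt ubA dcA (ρ n)) i
/-- the element of order three -/
structure XS (V : Subgroup G) (ρ : G → ℕ) (x : G) : Prop where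
  n : x ∈ N(V)
  e : ρ x = cx
  o : x ^ 3 = 1
/-- the extraspecial subgroup -/
structure QA (V : Subgroup G) (ρ : G → ℕ) (v : ℕ → G) (Q : Subgroup G) (x : G) : Prop extends QS V ρ v Q V x, XS V ρ x where
  QW : Q ⊓ V = VS v 7
  LQ : V ⊔ Q = TG V ρ gR 6
  cQ : #Q = 8192
  fq : Q ⊓ cm (zpowers (v 1)) {x} ≤ zpowers (v 1)
theorem xor128 (h : i < 2048) : i ^^^ 128 * (i / 128) < 2 ^ 7 ∧ i / 128 < 16 := by
  revert i; exact fun {i} h => (allTo2_iff (fun i => decide (i ^^^ 128 * (i / 128) < 2 ^ 7 ∧ i / 128 < 16)) 32 64).1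
    (by decide +kernel) i h |> of_decide_eq_true
variable (h : IF V ρ v ubA dcA)
include h
theorem memC (ha : a ∈ N(V)) {g : ℕ} (e : ρ a = g) (c : inC g = true) : a ∈ CC :=
  ⟨ha, (h.fixi ha (by decide)).2 (e ▸ Nat.beq_eq ▸ ((band_iff _ _).1 c).2)⟩
theorem exC {g : ℕ} (c : inC g = true) : ∃ a ∈ CC, ρ a = g :=
  let ⟨a, ha, e⟩ := h.sur g ((band_iff _ _).1 c).1; ⟨a, memC h ha e c, e⟩
theorem cjx {c y y' : ℕ} (d : cnj c y y' = true) (ha : a ∈ N(V)) (e : ρ a = y) : ∃ k ∈ CC, ρ (k * a * k⁻¹) = y' := by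
  simp only [cnj, band_iff (band _ _), band_iff (inC _), Nat.beq_eq] at d
  obtain ⟨k, hk, ek⟩ := exC h d.1.1
  obtain ⟨b, hb, eb⟩ := h.sur _ d.1.2
  exact ⟨k, hk, (h.cjr ha hb hk.1 (by rw [ek, e, eb, d.2])).trans eb⟩
theorem V11 : VS v 11 = V := le_antisymm h.VS_le fun u hu => let ⟨i, hi, e⟩ := h.vs u hu; e ▸ h.mVS hi
theorem V0 : VS v 0 = ⊥ := card_eq_one.1 (h.cVS (by decide))
theorem cw_iff {k g : ℕ} (hk : k ≤ 11) (hj : j ≤ 11) (hn : n ∈ N(V)) (e : ρ n = g) :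
    cw g k j = true ↔ ∀ u ∈ VS v j, ⁅n, u⁆ ∈ VS v k := by
  subst e
  simp only [cw, force_eq, allTo_iff, Nat.blt_eq, cv, xor_eq', Nat.pow_eq]
  have l := Nat.pow_le_pow_right (n := 2) (by decide) hj
  refine ⟨fun q u hu => ?_, fun q i hi => (h.cmS hk hn ?_).1 (q _ (h.mVS (Nat.pow_lt_pow_right (by decide) hi)))⟩
  · obtain ⟨i, hi, rfl⟩ := h.exVS hu
    have := map_lin (fun i => Ai n i ^^^ i) (by simp [mv_zero]) (fun a b => by simp only [mv_xor]; ac_rfl) (fun j => 2 ^ j) j i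
    rw [lin_two_pow, Nat.mod_eq_of_lt hi] at this
    exact (h.cmS hk hn (hi.trans_le l)).2 (this ▸ lin_lt _ _ k q i)
  · exact (Nat.pow_lt_pow_right (by decide) hi).trans_le l
theorem cvS {k g : ℕ} (hk : k ≤ 11) (hn : n ∈ N(V)) (e : ρ n = g) (hi : i < 2048) : ⁅n, v i⁆ ∈ VS v k ↔ cv (M g) i < 2 ^ k :=
  e ▸ h.cmS hk hn hi
theorem cvZ {g : ℕ} (hn : n ∈ N(V)) (e : ρ n = g) (hi : i < 2048) : ⁅n, v i⁆ ∈ ZZ ↔ cv (M g) i < 2 :=
  h.VS1 ▸ cvS h (k := 1) (by decide) hn e hi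
theorem mZ (hi : i < 2) : v i ∈ ZZ := h.VS1 ▸ h.mVS (k := 1) hi
theorem Cg : CC = TG V ρ gC 5 ∧ #(CC) = 2048 * 138240 := by
  obtain ⟨d, -, -, p0, p1, p2, p3, p7, -⟩ := ckC
  have l : TG V ρ gC 5 ≤ CC := h.TGle (h.VT.trans (le_inf h.TN (h.TC mdA))) fun a ha j hj e => memC h ha e (d j hj).1
  have s := h.slp h.TN ckS fun k hk => by rw [← (d k hk).2.1]; exact h.exTG (gt := gC) (m := 5) hk ((band_iff _ _).1 (d k hk).1).1
  have d1 := card_dvd (h.TGle' (gt := gT) (m := 4) h.VT h.TN fun j hj => by rw [← p1 j hj]; exact s _ (p0 j (by omega)))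
  have d2 := card_dvd (h.TGle' (gt := gN) (m := 2) h.VT h.TN fun j hj => by rw [← p2 j hj]; exact s _ (p0 _ (by omega)))
  have d3 := card_dvd (h.TGle' (gt := gP) (m := 1) h.VT h.TN fun j hj => by rw [← p3 j hj]; exact s _ (p0 _ (by omega)))
  have c := h.cC mdA
  rw [h.cT] at d1
  rw [(h.tspec ckN (by decide) (by decide)).2.2] at d2
  rw [(h.tspec ckP (by decide) (by decide)).2.2] at d3
  rw [p7] at c
  have := Nat.le_of_dvd (card_pos _) (Nat.Coprime.mul_dvd_of_dvd_of_dvd (by norm_num) (Nat.Coprime.mul_dvd_of_dvd_of_dvd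
    (by norm_num) d1 ((by norm_num : 27 ∣ 3 * 9 * 2048).trans d2)) ((by norm_num : 5 ∣ 1 * 5 * 2048).trans d3))
  clear d1 d2 d3
  have e := eq_of_le_of_card_ge l (by omega)
  exact ⟨e.symm, by rw [e] at this; omega⟩
theorem TC : T ≤ CC := le_inf h.TN (h.TC mdA)
theorem VC : V ≤ CC := h.VT.trans (TC h)
theorem nV (l : X ≤ V) : V ≤ N(X) := norms_of_cents (h.cent.ge.trans (cent_mono l))
theorem Vcm (l : X ≤ V) (l2 : Y ≤ V) : V ≤ cm X Y := fun a ha => ⟨nV h l ha, fun b hb =>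
  cm1.2 (cent_le_cent1 (l2 hb) (h.cent.ge ha)) ▸ one_mem _⟩
theorem CW : CC ≤ N(WW) := (Cg h).1 ▸ h.TGle (nV h h.VS_le) fun a ha j hj e => h.nVS ha (e ▸ (ckC.1 j hj).2.2.1)
theorem TU : T ≤ N(UU) := h.TGle (nV h h.VS_le) fun a ha j hj e => h.nVS ha (e ▸ ckX.2.2.2.2.2.2.2.2.2.2.2.2.1 j hj)
theorem CL : CC ≤ N(LL) := (Cg h).1 ▸ h.TGle (norms_of_le h.VT) fun a ha j hj e => mem_norm_of_cj_le (cj_le_iff.2 (h.TGle
  (cj_le_iff.1 ((cj_of_mem_norm ha).le.trans h.VT)) fun b hb i hi eb => mem_cj_inv.2 (by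
    obtain ⟨k, hk, q⟩ := (ckC.1 j hj).2.2.2 i hi
    obtain ⟨c, hc, ec⟩ := (h.tspec ckR (by decide) (by decide)).2.1 k hk
    exact h.memr h.VT hc (h.TN hc) (mul_mem (mul_mem ha hb) (inv_mem ha)) (h.cjr hb (h.TN hc) ha (by rw [e, eb, ec, q])).symm)))
theorem CK : CC ≤ N(KK) := norms_inf le_normalizer (cm_nms (CW h) inf_le_left)
theorem mK (ha : a ∈ CC) {g : ℕ} (e : ρ a = g) : a ∈ KK ↔ cw g 7 11 = true := by
  rw [cw_iff h (by decide) le_rfl ha.1 e, V11 h]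
  exact ⟨fun k => k.2.2, fun k => ⟨ha, CW h ha, k⟩⟩
theorem LK : LL ≤ KK := h.TGle (le_inf (VC h) (Vcm h h.VS_le le_rfl)) fun a ha j hj e =>
  (mK h (memC h ha e (ckG.1 j hj).1) e).2 (ckG.1 j hj).2.1
theorem LC : LL ≤ CC := (LK h).trans inf_le_left
theorem cL : #LL = 64 * 2048 := (h.tspec ckR (by decide) (by decide)).2.2
theorem LT : LL ≤ T := h.TGle h.VT fun a ha j hj e => h.mT ha (ckG.1 j hj).2.2.2.1 (e.trans (ckG.1 j hj).2.2.2.2.1)
theorem ZW : ZZ ≤ WW := zpowers_le.2 (h.mVS (by decide))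
theorem ZU : ZZ ≤ UU := zpowers_le.2 (h.mVS (by decide))
theorem UW : UU ≤ WW := h.VS_mono (by decide)
theorem LW : LL ≤ cm ZZ WW := h.TGle (Vcm h ((ZW h).trans h.VS_le) h.VS_le) fun a ha j hj e =>
  ⟨HZ (memC h ha e (ckG.1 j hj).1).2, h.VS1 ▸ (cw_iff h (k := 1) (by decide) (by decide) ha e).1 (ckG.1 j hj).2.2.1⟩
theorem Lk (hl : l ∈ LL) : ∃ k < 64, ρ l = getP tR k := (h.tspec ckR (by decide) (by decide)).1 l hl
theorem exL {k : ℕ} (hk : k < 64) : ∃ l ∈ LL, ρ l = getP tR k := (h.tspec ckR (by decide) (by decide)).2.1 k hk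
theorem L0V (hl : l ∈ N(V)) (e : ρ l = getP tR 0) : l ∈ V := (h.ker hl).1 (e.trans ckX.2.2.2.2.2.2.2.2.2.2.2.2.2.2)
theorem Lsq (hl : l ∈ LL) : l * l ∈ WW := by
  have s : ∀ l ∈ LL, l * l ∈ V := fun l hl => by
    obtain ⟨k, hk, e⟩ := Lk h hl
    exact (h.ker (h.TN (mul_mem hl hl))).1 (by rw [h.mul _ (h.TN hl) _ (h.TN hl), e, (ckG.2.1 k hk).1])
  obtain ⟨k, hk, e⟩ := Lk h hl
  rcases (ckG.2.1 k hk).2.2 with rfl | ⟨-, -, d⟩
  · exact h.sq _ (L0V h (h.TN hl) e) ▸ one_mem _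
  have f : ∀ c ∈ CC, c * l * c⁻¹ * (c * l * c⁻¹) ∈ WW → l * l ∈ WW := fun c hc q => by
    simpa [mul_assoc] using conj_mem_of_norm' (CW h hc) q
  rcases d with d | d <;> obtain ⟨c, hc, ec⟩ := cjx h d (h.TN hl) e <;> refine f c hc ?_ <;>
    have m := conj_mem_of_norm (CL h hc) hl <;> generalize c * l * c⁻¹ = n at *
  · obtain ⟨j, q⟩ := h.lift2 l2A (h.TN m) ec ckG.2.2.2.2.2.2.2.2.2.2
    have := (LK h (inv_mem m)).2.2 _ (h.vm j)
    rwa [commutatorElement_def, h.vinv, inv_inv, mul_assoc, mul_assoc, ← mul_assoc (v j),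
      eq_inv_of_mul_eq_one_left ((mul_assoc _ _ _).trans q), ← mul_inv_rev, inv_mem_iff] at this
  · obtain ⟨i, hi, ei⟩ := h.vs _ (s n m)
    have d := (allTo2_iff _ _ _).1 ckV i hi
    simp only [force_eq, band_iff, bimp_iff, Nat.beq_eq, Nat.blt_eq] at d
    exact ei ▸ h.mVS (d.1.1 (ec ▸ (h.fixi (h.TN m) hi).1 (ei ▸ mem_cent1.2 (mul_assoc _ _ _).symm)))
theorem LnW : LL ≤ N(WW) := (LC h).trans (CW h)
theorem cmL (ha : a ∈ LL) (hb : b ∈ LL) : ⁅a, b⁆ ∈ WW := cmsq (LnW h) (fun _ => Lsq h) ha hb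
theorem exX : ∃ x, XS V ρ x := let ⟨x, h1, h2, h3⟩ := h.lift ckX.1; ⟨x, h1, h2, h3⟩
variable (xs : XS V ρ x)
include xs
theorem xC : x ∈ CC := memC h xs.n xs.e ckX.2.1
theorem xK : x ∈ KK := (mK h (xC h xs) xs.e).2 ckX.2.2.1
theorem c3 : #(zpowers x) = 3 := (Nat.card_zpowers x).trans (orderOf_eq_prime xs.o fun e => ckX.2.2.2.1 (by rw [← xs.e, e, h.one]))
theorem Ke : KK = LL ⊔ zpowers x ∧ #(KK) = 3 * (64 * 2048) ∧ #(XC v (CC) 7 lA 3) ≤ 2 * #(KK) := by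
  have a0 := h.lev (by decide) (CW h) lv0
  have a1 := h.lev (by decide) (CW h) lv1
  have a2 := h.lev (by decide) (CW h) lv2
  have a3 := h.lev (by decide) (CW h) lv3
  have a4 := card_le (h.le_XC (X := CC) (k := 7) (A := lA) 4)
  have l := sup_le (LK h) (zpowers_le.2 (xK h xs))
  have d1 := card_dvd (le_sup_right : _ ≤ LL ⊔ zpowers x)
  have d2 := card_dvd (le_sup_left : _ ≤ LL ⊔ zpowers x)
  rw [c3 h xs] at d1
  rw [cL h] at d2
  have a5 := Nat.le_of_dvd (card_pos _) (Nat.Coprime.mul_dvd_of_dvd_of_dvd (by norm_num) d1 d2)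
  clear d1 d2
  have a6 := card_le l
  rw [show XC v (CC) 7 lA 0 = CC from rfl, (Cg h).2] at a0
  simp only [Nat.reduceAdd] at *
  exact ⟨(eq_of_le_of_card_ge l (by omega)).symm, by omega, by omega⟩
theorem fp (hl : l ∈ LL) (c : ⁅x, l⁆ ∈ V) : l ∈ V := by
  obtain ⟨k, hk, e⟩ := Lk h hl
  rcases (ckG.2.1 k hk).2.2 with rfl | d
  exacts [L0V h (h.TN hl) e, absurd (xs.e ▸ e ▸ h.cmul xs.n (h.TN hl) c) d.1]
local notation "QQ" => WW ⊔ ⁅LL, zpowers x⁆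
theorem QL : QQ ≤ LL := sup_le (h.VS_le.trans h.VT) (commg_le_left (zpowers_le.2 (CL h (xC h xs))))
theorem cop (l : X ≤ T) : (#X).Coprime #(zpowers x) := by
  obtain ⟨k, e⟩ := (h.pT.of_le l).exists_card
  rw [e, c3 h xs]; exact Nat.Coprime.pow_left _ (by decide)
theorem QV : QQ ⊓ V = WW := by
  have xW := zpowers_le.2 (CW h (xC h xs))
  have xL := zpowers_le.2 (CL h (xC h xs))
  refine le_antisymm ((quo_eq_bot_iff (inf_le_right.trans (nV h h.VS_le))).1 (le_bot_iff.1 ((ab_commg_inf_cent ((ab_quo_iff (LnW h)).2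
    (commutator_le.2 fun _ ha _ hb => cmL h ha hb)) (quo_norms xL) (cop_quo (cop h xs (LT h)) _)).le.trans' (le_inf ?_ ?_))))
    (le_inf le_sup_left h.VS_le)
  · rw [← quo_comm (LnW h) xW, ← quo_sup_left ((commg_le_left xL).trans (LnW h))]; exact quo_mono _ inf_le_left
  · exact (quo_mono _ inf_le_right).trans (cents_symm ((quo_cents_iff xW (nV h h.VS_le)).2
      (comm_le_cm (zpowers_le.2 (xK h xs).2))))
theorem LQ : V ⊔ QQ = LL := le_antisymm (sup_le h.VT (QL h xs)) ((commg_sup_cent (zpowers_le.2 (CL h (xC h xs))) (cop h xs (LT h))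
  (.inl (sol_zpowers x))).ge.trans (sup_le (le_sup_of_le_right le_sup_right) fun l hl => mem_sup_left (fp h xs hl.1
    (cm1.2 (mem_cent1_symm.1 (cent_zpowers x ▸ hl.2)) ▸ one_mem _))))
theorem cQ : #(QQ) = 8192 := by
  have := card_sup_mul_inf ((QL h xs).trans h.TN)
  rw [LQ h xs, inf_comm, QV h xs, cL h, h.cV, h.cVS (by decide)] at this
  omega
theorem CQ : CC ≤ N(QQ) := fun c hc => mem_norm_of_cj_le (by
  have KQ : KK ≤ cm (QQ) LL := (Ke h xs).1 ▸ sup_le (fun a ha => ⟨nrm (LnW h) (fun _ => Lsq h) le_sup_left (QL h xs) ha,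
    fun b hb => mem_sup_left (cmL h ha hb)⟩) (zpowers_le.2 ⟨norms_sup (zpowers_le.2 (CW h (xC h xs))) (commg_normr _ _) (mem_zpowers x),
      fun l hl => cms (mem_sup_right (commutator_mem_commutator hl (mem_zpowers x)))⟩)
  rw [cj_sup, cj_comm, cj_of_mem_norm (CW h hc), cj_of_mem_norm (CL h hc)]
  exact sup_le le_sup_left (commutator_le.2 fun a ha b hb =>
    cms ((KQ (cj_le_of_mem_norm (CK h hc) (zpowers_le.2 (xK h xs)) hb)).2 a ha)))
theorem exQ (hl : l ∈ LL) : ∃ q ∈ QQ, ρ q = ρ l := by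
  obtain ⟨u, hu, q, hq, rfl⟩ := (mem_sup_of_norm ((QL h xs).trans h.TN)).1 ((LQ h xs).ge hl)
  exact ⟨q, hq, (h.Vmul (h.TN (QL h xs hq)) hu).symm⟩
theorem exG (hj : j < 6) : ∃ q ∈ QQ, ρ q = getP gR j := by
  obtain ⟨l, hl, e⟩ := h.exTG hj ((band_iff _ _).1 (ckG.1 j hj).1).1
  exact e ▸ exQ h xs hl
theorem Qsq (hq : q ∈ QQ) : q * q ∈ ZZ := by
  have f : ∀ j < 2, ∀ q ∈ QQ, ρ q = (if j < 1 then r1 else r2) → q * q ∈ ZZ := fun j hj q hq e => by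
    have ql := QL h xs hq
    obtain ⟨i, hi, ei⟩ := h.exVS (Lsq h ql)
    have k : ∀ m < 4, m / 2 = j → cv (M (getP gP2 m)) i < 2 := fun m hm em => by
      obtain ⟨g, hg, eg⟩ := exC h (ckG.2.2.1 m hm).1
      have w := (QV h xs).le ⟨cmN (CQ h xs hg) hq, h.cm1' hg.1 (h.TN ql) (by
        rw [eg, e, show (if j < 1 then r1 else r2) = if m < 2 then r1 else r2 from if_congr (by omega) rfl rfl,
          (ckG.2.2.1 m hm).2])⟩
      refine (cvZ h hg.1 eg (by omega)).1 ?_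
      rw [ei, cmr, cjcm q, ← mul_assoc]
      nth_rw 3 [← inv_eq_of_mul_eq_one_right (h.sq _ (h.VS_le w))]
      exact conj_mem_of_norm (HZ (VC h (h.VS_le w)).2) ((LW h ql).2 _ w)
    exact ei ▸ mZ h (ckG.2.2.2.1 j hj i hi ⟨k _ (by omega) (by omega), k _ (by omega) (by omega)⟩)
  obtain ⟨k, hk, e⟩ := Lk h (QL h xs hq)
  have n := h.TN (QL h xs hq)
  rcases (ckG.2.1 k hk).2.2 with rfl | ⟨-, -, d⟩
  · exact h.sq _ (L0V h n e) ▸ one_mem _
  have g : ∀ c ∈ CC, c * q * c⁻¹ * (c * q * c⁻¹) ∈ ZZ → q * q ∈ ZZ := fun c hc q => by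
    simpa [mul_assoc] using conj_mem_of_norm' (HZ hc.2) q
  rcases d with d | d <;> obtain ⟨c, hc, ec⟩ := cjx h d n e
  exacts [g c hc (f 0 (by decide) _ (conj_mem_of_norm (CQ h xs hc) hq) ec), g c hc (f 1 (by decide) _ (conj_mem_of_norm (CQ h xs hc) hq) ec)]
theorem cW : QQ ⊓ C(WW) ≤ V := fun q hq => by
  obtain ⟨k, hk, e⟩ := Lk h (QL h xs hq.1)
  have n := h.TN (QL h xs hq.1)
  rcases (ckG.2.1 k hk).2.2 with rfl | d
  exacts [L0V h n e, absurd ((cw_iff h (by decide) (by decide) n e).2 fun u hu => cm1.2 (cent_le_cent1 hu hq.2) ▸ one_mem _) d.2.1]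
theorem qa : QA V ρ v (QQ) x := by
  have QC := (QL h xs).trans (LC h)
  have es : ES (QQ) (v 1) := mkES (mem_sup_left (ZW h (mem_zpowers _))) (h.s1 mdA) (h.vv 1) (QC.trans inf_le_right) (fun _ => Qsq h xs)
    (fun q hq => by
      obtain ⟨i, hi, rfl⟩ := h.exVS ((QV h xs).le ⟨hq.1, cW h xs ⟨hq.1, cent_mono le_sup_left hq.2⟩⟩)
      refine mZ h (ckG.2.2.2.2.1 i hi fun j hj => ?_)
      obtain ⟨a, ha, e⟩ := exG h xs hj
      exact e ▸ (h.fixi (QC ha).1 (by omega)).1 (mem_cent1_symm.1 (cent_le_cent1 ha hq.2))) (by rw [cQ h xs]; decide)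
  have fq : QQ ⊓ cm ZZ {x} ≤ ZZ := fun q hq => by
    have c := cms (mem_cm1.1 hq.2).2
    obtain ⟨i, hi, rfl⟩ := h.exVS ((QV h xs).le ⟨hq.1, fp h xs (QL h xs hq.1) (h.VS_le (ZW h c))⟩)
    exact mZ h (ckX.2.2.2.2.1 i hi ((cvZ h xs.n xs.e (by omega)).1 c))
  refine ⟨⟨es, (QL h xs).trans (LT h), CQ h xs, (QV h xs).symm ▸ cW h xs, fun w hw => ?_, xC h xs, xs.o,
    by rw [QV h xs, (Ke h xs).1, LQ h xs], le_rfl, by rw [inf_comm, QV h xs, h.cV, h.cVS (by decide)]; decide,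
    fun a ha b hb na nb nab q hq => ?_, .inr fq, by rw [cQ h xs]; decide⟩, xs, QV h xs, LQ h xs, cQ h xs, fq⟩
  · obtain ⟨i, hi, rfl⟩ := h.vs w hw.1
    have d := (allTo2_iff _ _ _).1 ckV i hi
    simp only [force_eq, band_iff, bimp_iff, allTo_iff, Nat.blt_eq] at d
    refine mem_sup_left (h.mVS (d.1.2 fun j hj => ?_))
    obtain ⟨a, ha, e⟩ := exG h xs hj
    exact (cvZ h (QC ha).1 e hi).1 (cms (hw.2.2 a ha))
  obtain ⟨k, hk, e⟩ := Lk h (QL h xs hq.1.1)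
  have f : ∀ a ∈ V, q ∈ cm ZZ {a} → ∃ i < 16, a * v (128 * i) ∈ QQ ∧ tb (g64 mR2 i) k = true := fun a ha c => by
    obtain ⟨i, hi, rfl⟩ := h.vs a ha
    have w := h.mVS (xor128 hi).1
    have d := (ckM _ (xor128 hi).2).2.1 k hk
    refine ⟨_, (xor128 hi).2, h.vx _ _ ▸ mem_sup_left w, d.2.2.2 (d.2.2.1 ▸ (cvZ h (QC hq.1.1).1 e (by omega)).1 ?_)⟩
    have := cm_mul1 (HZ (VC h ha).2) c (cm_one w (LW h (QL h xs hq.1.1)))
    rw [← h.vx, ← Nat.xor_assoc, Nat.xor_self, Nat.zero_xor] at this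
    exact (mem_cm1.1 this).2
  obtain ⟨i, hi, m1, t1⟩ := f a ha hq.1.2
  obtain ⟨j, hj, m2, t2⟩ := f b hb hq.2
  rcases ((ckM i hi).2.2 j hj).2.2 k hk t1 t2 with (rfl | rfl) | rfl | rfl
  · exact absurd (by simpa [h.v0] using m1) na
  · exact absurd (by simpa [h.v0] using m2) nb
  · refine absurd ?_ nab
    have := mul_mem m1 m2
    rwa [mul_assoc, csq h.sq hb (h.vm _), ← mul_assoc (v _), h.vv, one_mul] at this
  · exact L0V h (QC hq.1.1).1 e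
omit xs in
theorem exQA : ∃ Q x, QA V ρ v Q x := let ⟨x, xs⟩ := exX h; ⟨_, x, qa h xs⟩
end CA
end H10.RF
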