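import Cfsg.Agent.H10.RF.E2

/-! The extraspecial subgroup is strongly closed. -/

set_option autoImplicit false
set_option linter.unusedSectionVars false
set_option linter.unusedVariables false
set_option maxRecDepth 100000
open Cfsg Subgroup H19 H0 H15
open scoped commutatorElement Pointwise
namespace H10.RF
local notation "cj" => H19.cj
namespace CA
variable {G : Type*} [Group G] [Finite G] {V : Subgroup G} {ρ : G → ℕ} {v : ℕ → G} {A B D E F J N Q X Y : Subgroup G}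
  {a b c d e g k l n q t u w x y : G} {i j : ℕ}
local notation "T" => TG V ρ gT 4
local notation "HH" => C[v 1]
local notation "CC" => N(V) ⊓ C[v 1]
local notation "WW" => VS v 7
local notation "UU" => VS v 5
local notation "LL" => TG V ρ gR 6
local notation "ZZ" => zpowers (v 1)
local notation "KK" => N(V) ⊓ C[v 1] ⊓ cm (VS v 7) V
local notation:max "Ai" n:max i:max => mv (mt ubA dcA (ρ n)) i
theorem exM (p : ℕ → Prop) : ∃ m < 256 * 256, (∀ i < 16, m.testBit i = true ↔ p i) ∧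
    ∀ k : ℕ, (∀ i < 16, p i → k.testBit i = true) → m &&& k = m := by
  classical
  have l := Nat.ofBits_lt_two_pow fun i : Fin 16 => decide (p i)
  have e : ∀ i < 16, (Nat.ofBits fun i : Fin 16 => decide (p i)).testBit i = true ↔ p i := fun i hi => by
    rw [Nat.testBit_ofBits_lt _ _ hi]; simp
  refine ⟨_, l, e, fun k q => Nat.eq_of_testBit_eq fun i => ?_⟩
  rw [Nat.testBit_and, Bool.and_eq_left_iff_imp]
  by_cases c : i < 16
  · exact fun r => q i c ((e i c).1 r)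
  · rw [Nat.testBit_lt_two_pow (l.trans_le (Nat.pow_le_pow_right (by decide) (by omega)))]; simp
theorem andF_iff {f : ℕ → ℕ} {m a n : ℕ} : (andF f m a n).testBit i = true ↔
    a.testBit i = true ∧ ∀ j < n, m.testBit j = true → (f j).testBit i = true := by
  induction n with
  | zero => simp [andF]
  | succ n ih =>
    rw [show andF f m a (n + 1) = force (andF f m a n) fun acc => Bool.rec acc (Nat.land acc (f n)) (tb m n) from rfl,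
      force_eq, brec_eq_ite, tb_eq, Nat.forall_lt_succ_right, ← and_assoc, ← ih]
    split_ifs with c <;> simp [c]
theorem rel (k : c⁻¹ * e ∈ A) (l : A ≤ X) : c ∈ X ↔ e ∈ X :=
  ⟨fun q => by simpa using mul_mem q (l k), fun q => by simpa using mul_mem q (inv_mem (l k))⟩
theorem cub {n m : ℕ} (φ : G → ℕ) (h1 : ∀ x ∈ X, φ x < n ∧ m.testBit (φ x) = true) (h2 : ∀ x ∈ X, ∀ y ∈ X, φ x = φ y → x⁻¹ * y ∈ Y) :
    #X ≤ cntTo2 (tb m) 1 n * #(X ⊓ Y) := by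
  rw [cntTo2_eq]; exact cos_ub' φ _ (fun x hx => by simpa [tb_eq] using h1 x hx) h2
variable (h : IF V ρ v ubA dcA)
include h
theorem exA (hj : j < 16) : ∃ c ∈ T, ρ c = getP gA j :=
  let ⟨c, hc, e⟩ := h.sur _ (ckA.1 j hj).1; ⟨c, h.mT hc (ckA.1 j hj).2.1 (e.trans (ckA.1 j hj).2.2.1), e⟩
theorem decT (ht : t ∈ T) : ∃ a < 16, ∃ c ∈ T, ρ c = getP gA a ∧ c⁻¹ * t ∈ LL := by
  obtain ⟨k, hk, e⟩ := h.exT ht
  have d := (allTo2_iff _ _ _).1 ckD k hk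
  simp only [force_eq, band_iff, Nat.blt_eq, Nat.beq_eq, div_eq', mod_eq'] at d
  have l : g12 dT k / 64 < 16 := by omega
  obtain ⟨c, hc, ec⟩ := exA h l
  obtain ⟨b, hb, eb⟩ := exL h (Nat.mod_lt (g12 dT k) (by decide))
  have := mul_mem hb (h.VT ((h.eqv _ (h.TN (mul_mem hc (LT h hb))) _ (h.TN ht)).1 (by
    rw [h.mul _ (h.TN hc) _ (h.TN hb), ec, eb, e, d.2])))
  exact ⟨_, l, c, hc, ec, by simpa [mul_assoc] using this⟩
theorem into {p : ℕ} (l : X ≤ CC) (nd : ∀ k, #X * k = 2048 * 138240 → ¬ p ∣ k) (hy : y ∈ CC) (o : PiE {p} y) :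
    ∃ c ∈ CC, c * y * c⁻¹ ∈ X := by
  obtain ⟨S, s⟩ := exists_syl p X
  obtain ⟨c, hc, e⟩ := (s.of_idx l (PiN.of_not_dvd (nd _ ((card_mul_relIndex l).trans (Cg h).2)))).scj_le (zpowers_le.2 hy)
    (piG_zpowers.2 o)
  exact ⟨c, hc, s.le (e (conj_mem_cj.2 (mem_zpowers y)))⟩
theorem into3 (hy : y ∈ CC) (o : PiE {3} y) : ∃ c ∈ CC, ∃ e < 27, ρ (c * y * c⁻¹) = getP tN e := by
  have t := h.tspec ckN (by decide) (by decide)
  obtain ⟨c, hc, e⟩ := into h (h.TGle (VC h) fun a ha j hj e => memC h ha e (ckX.2.2.2.2.2.1 j hj).1)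
    (fun k e => by rw [t.2.2] at e; omega) hy o
  exact ⟨c, hc, t.1 _ e⟩
theorem s6z (n : N ⊴ CC) (l : LL ≤ N) (k : ¬ N ≤ KK) (ha : a ∈ N(V)) (e : ρ a = getP gA 2) : a ∈ N := by
  by_contra na
  have st : ∀ {tab m c1 y1 c2}, s6 tab m c1 y1 c2 = true → ∀ e < m, ∀ y ∈ N, ρ y = getP tab e → y ∈ KK := fun d j hj y hy ey => by
    have d := (allTo_iff _ _).1 d j hj
    simp only [force_eq, bor_iff, band_iff (cnj _ _ _)] at d
    have yC := n.le hy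
    refine (mK h yC ey).2 (d.resolve_right fun d => na ?_)
    obtain ⟨c, hc, ec⟩ := cjx h d.1 yC.1 ey
    have m := mul_mem hy (n.conj_mem hc hy)
    obtain ⟨b, hb, eb⟩ := cjx h d.2 (n.le m).1 (by rw [h.mul _ yC.1 _ (n.le (n.conj_mem hc hy)).1, ey, ec])
    exact h.memr (h.VT.trans l) (n.conj_mem hb m) (n.le (n.conj_mem hb m)).1 ha (eb.trans e.symm)
  refine k (le_of_syl fun p P hp s y hy => ?_)
  have yN := s.le hy
  have yC := n.le yN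
  have o := s.pi.elt hy
  suffices ∃ c ∈ CC, c * y * c⁻¹ ∈ KK by
    obtain ⟨c, hc, e⟩ := this
    simpa [mul_assoc] using conj_mem_of_norm' (CK h hc) e
  by_cases p2 : p = 2
  · subst p2
    obtain ⟨c, hc, q⟩ := into h (TC h) (fun k e => by rw [h.cT] at e; omega) yC o
    obtain ⟨j, hj, b, hb, eb, r⟩ := decT h q
    exact ⟨c, hc, (rel r (LK h)).1 (st s6A j hj b ((rel r l).2 (n.conj_mem hc yN)) eb)⟩
  by_cases p3 : p = 3
  · subst p3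
    obtain ⟨c, hc, j, hj, q⟩ := into3 h yC o
    exact ⟨c, hc, st s6N j hj _ (n.conj_mem hc yN) q⟩
  by_cases p5 : p = 5
  · subst p5
    have t := h.tspec ckP (by decide) (by decide)
    obtain ⟨c, hc, q⟩ := into h (X := TG V ρ gP 1) ((Cg h).1 ▸ h.TGle' h.VT h.TN fun j hj => by
      rw [← ckC.2.2.2.2.2.2.1 j hj]
      exact h.slp h.TN ckS (fun k hk => by
        rw [← (ckC.1 k hk).2.1]; exact h.exTG (gt := gC) (m := 5) hk ((band_iff _ _).1 (ckC.1 k hk).1).1) _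
        (ckC.2.2.2.1 6 (by decide))) (fun k e => by rw [t.2.2] at e; omega) yC o
    obtain ⟨j, hj, r⟩ := t.1 _ q
    exact ⟨c, hc, st s6P j hj _ (n.conj_mem hc yN) r⟩
  obtain ⟨c, hc, q⟩ := into h (VC h) (fun k e d => by
    rw [h.cV] at e
    have d := hp.dvd_of_dvd_pow (d.trans (show k ∣ 30 ^ 10 by rw [show k = 138240 by omega]; decide))
    have := Nat.le_of_dvd (by decide) d
    interval_cases p <;> first | omega | exact absurd hp (by decide)) yC o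
  exact ⟨c, hc, LK h (h.VT q)⟩
theorem s6j (n : N ⊴ CC) (l : LL ≤ N) (k : ¬ N ≤ KK) {c y : ℕ} (d : cnj c (getP gA 2) y = true ∨ cnj c y (getP gA 2) = true)
    (ha : a ∈ N(V)) (e : ρ a = y) : a ∈ N := by
  rcases d with d | d
  · obtain ⟨z, hz, ez⟩ := exA h (j := 2) (by decide)
    obtain ⟨c, hc, ec⟩ := cjx h d (h.TN hz) ez
    have m := n.conj_mem hc (s6z h n l k (h.TN hz) ez)
    exact h.memr (h.VT.trans l) m (n.le m).1 ha (ec.trans e.symm)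
  · obtain ⟨c, hc, ec⟩ := cjx h d ha e
    simpa [mul_assoc] using n.conj_mem (inv_mem hc) (s6z h n l k (mul_mem (mul_mem hc.1 ha) (inv_mem hc.1)) ec)
theorem s6c (n : N ⊴ CC) (l : LL ≤ N) (k : ¬ N ≤ KK) (ht : t ∈ T) (e : ρ t = getP gA 12) (hc : c ∈ CC) :
    c ∈ N ∨ ∃ b ∈ N, c = t * b := by
  have nt := h.TN ht
  refine adj (n.norm (TC h ht)) (l (h.VT ((h.ker (mul_mem nt nt)).1 (by rw [h.mul _ nt _ nt, e, ckX.2.2.2.2.2.2.2.2.1]))))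
    (((Cg h).1.le.trans (h.TGle ((h.VT.trans l).trans le_sup_left) fun a ha j hj ea => ?_)) hc)
  obtain rfl | hj : j = 4 ∨ j < 4 := by omega
  · exact h.memr ((h.VT.trans l).trans le_sup_left) (mem_sup_right (mem_zpowers t)) nt ha (by rw [e, ea, ckC.2.2.1])
  · exact mem_sup_left (s6j h n l k (.inl (ckC.2.1 j hj)) ha ea)
variable (qa : QA V ρ v Q x)
include qa
theorem QL' : Q ≤ LL := qa.LQ ▸ le_sup_right
theorem WQ : WW ≤ Q := qa.QW ▸ inf_le_left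
theorem QC : Q ≤ CC := (QL' h qa).trans (LC h)
theorem decL (hl : l ∈ LL) : ∃ u < 16, v (128 * u) * l ∈ Q := by
  obtain ⟨a, ha, b, hb, rfl⟩ := (mem_sup_of_norm ((QL' h qa).trans h.TN)).1 (qa.LQ.ge hl)
  obtain ⟨i, hi, rfl⟩ := h.vs a ha
  exact ⟨_, (xor128 hi).2, by rw [← mul_assoc, ← h.vx, Nat.xor_comm]; exact mul_mem (WQ h qa (h.mVS (xor128 hi).1)) hb⟩
theorem vQ' (hi : i < 2048) : v i ∈ Q ↔ i < 128 :=
  ⟨fun k => (h.memVS (k := 7) (by decide) hi).1 (qa.QW.le ⟨k, h.vm i⟩), fun k => WQ h qa (h.mVS k)⟩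
theorem ts (hE : E ≤ T) (s : ∀ e ∈ E, e * e ∈ ZZ) : ∃ f, #E ≤ f * #(E ⊓ Q) ∧ f ≤ 32 ∧ (E ≤ Q ∨ f * #(Q ⊓ cm ZZ E) < 8192 ∧
    (f * (f * #(Q ⊓ cm ZZ E)) < 8192 ∨ #(Q ⊓ cm ZZ E) ≤ 128 ∧ ∃ e ∈ E, e ∉ Q ∧ ∀ a ∈ Q, ⁅a, e⁆ ∈ Q ⊓ cm ZZ E)) := by
  have EC := hE.trans (TC h)
  have EZ : E ≤ N(ZZ) := (EC.trans inf_le_right).trans HZ
  have ZQ := qa.es.zp_le
  have QL := QL' h qa
  have cE := fun {a b} => cmsq (a := a) (b := b) EZ s
  obtain ⟨m1, l1, b1, f1⟩ := exM fun a => ∃ c ∈ T, ρ c = getP gA a ∧ ∃ e ∈ E, c⁻¹ * e ∈ LL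
  obtain ⟨m0, l0, b0, f0⟩ := exM fun u => ∃ e ∈ E, v (128 * u) * e ∈ Q
  have d := (allTo2_iff _ _ _).1 ckL m0 l0
  simp only [force_eq, bimp_iff, band_iff, allTo_iff, anyTo_iff, tb_eq, Nat.beq_eq, xor_eq'] at d
  obtain ⟨j, hj, ej⟩ := d ⟨(b0 0 (by decide)).2 ⟨1, one_mem _, by simp [h.v0]⟩, fun a ha ta b hb tb => by
    obtain ⟨e, he, k⟩ := (b0 a ha).1 ta
    obtain ⟨g, hg, r⟩ := (b0 b hb).1 tb
    refine (b0 _ (Nat.xor_lt_two_pow (n := 4) ha hb)).2 ⟨_, mul_mem he hg, ?_⟩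
    have := mul_mem (mul_mem k (WQ h qa ((LK h (inv_mem ((Subgroup.mul_mem_cancel_left _ (h.VT (h.vm _))).1 (QL k)))).2.2 _
      (h.vm (128 * b))))) r
    rw [(by decide : ∀ a < 16, ∀ b < 16, 128 * (a ^^^ b) = 128 * a ^^^ 128 * b) a ha b hb, h.vx]
    convert this using 1
    simp only [commutatorElement_def]; group⟩
  have d := (allTo2_iff _ _ _).1 ckT m1 l1
  simp only [force_eq, bimp_iff, band_iff (band _ _), band_iff (Nat.testBit _ _), allTo_iff, tb_eq, Nat.beq_eq, Nat.land_eq] at d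
  have TL := (TC h).trans (CL h)
  have ρL : ∀ {a b}, a ∈ T → b ∈ T → a⁻¹ * b ∈ LL → ∃ k < 64, ρ b = pmul (ρ a) (getP tR k) := fun ha hb k =>
    let ⟨k, hk, e⟩ := Lk h k; ⟨k, hk, by rw [← e, ← h.mul _ (h.TN ha) _ (h.TN (mul_mem (inv_mem ha) hb)), mul_inv_cancel_left]⟩
  have cc : ∀ {c e c' e'}, c ∈ T → e ∈ E → c⁻¹ * e ∈ LL → c' ∈ T → e' ∈ E → c'⁻¹ * e' ∈ LL → ⁅c, c'⁆ ∈ LL := fun hc he k hc' he' k' =>
    (mem_cm1.1 ((rel k (le_cm1 (TL hc'))).2 (cm_sy ((rel k' (le_cm1 (TL (hE he)))).2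
      (mem_cm1.2 ⟨TL (hE he'), QL (ZQ (cE he' he))⟩)) (TL (hE he))))).2
  replace d := d ⟨⟨(b1 0 (by decide)).2 ⟨1, one_mem _, h.one.trans ckX.2.2.2.2.2.2.2.2.2.2.2.2.2.1.symm, 1, one_mem _, by simp⟩,
    f1 _ fun a ha ⟨c, hc, ec, e, he, k⟩ => by
      obtain ⟨i, hi, ei⟩ := Lk h (l := c * c) (by
        have := mul_mem (mul_mem (QL (ZQ (s e he))) (conj_mem_of_norm' (TL (hE he)) (inv_mem k))) (inv_mem k)
        simpa [mul_assoc] using this)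
      exact tb_eq _ _ ▸ ((ckM a ha).2.1 i hi).2.1 (by rw [← ei, h.mul _ (h.TN hc) _ (h.TN hc), ec])⟩,
    fun a ha ta => f1 _ fun b hb ⟨c', hc', ec', e', he', k'⟩ => by
      obtain ⟨c, hc, ec, e, he, k⟩ := (b1 a ha).1 ta
      obtain ⟨i, hi, ei⟩ := ρL (mul_mem hc' hc) (mul_mem hc hc') (by
        simpa [commutatorElement_def, mul_assoc] using conj_mem_of_norm' (TL (mul_mem hc' hc)) (cc hc he k hc' he' k'))
      exact tb_eq _ _ ▸ ((ckM a ha).2.2 b hb).2.1 i hi (by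
        rw [← ec, ← ec', ← h.mul _ (h.TN hc) _ (h.TN hc'), ← h.mul _ (h.TN hc') _ (h.TN hc), ei])⟩ j hj (ej ▸ f0 _ fun u hu ⟨e', he', k'⟩ =>
    andF_iff.2 ⟨(by decide : ∀ u < 16, Nat.testBit 65535 u = true) u hu, fun a ha ta => by
      obtain ⟨c, hc, ec, e, he, k⟩ := (b1 a ha).1 ta
      have nQ := qa.CQ (EC he)
      have m := (Subgroup.mul_mem_cancel_right _ (mem_cm1.2 ⟨qa.CQ (EC he'), ZQ (cE he' he)⟩)).1 (le_cm1 nQ k')
      refine tb_eq _ _ ▸ ((ckM a ha).2.2 u hu).1 ((cvS h (k := 7) (by decide) (h.TN hc) ec (by omega)).1 (mem_cm1.1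
        ((rel k fun l hl => cm_one (h.vm _) (LK h hl).2).2 (mem_cm1.2 ⟨CW h (EC he), qa.QW.le
          ⟨cms (mem_cm1.1 m).2, cmN (EC he).1 (h.vm _)⟩⟩))).2)⟩)
  rw [← ej] at d
  simp only [tsP, force_eq, band_iff, bor_iff, anyTo_iff, allTo_iff, tb_eq, Nat.beq_eq, Nat.blt_eq, Nat.ble_eq, Nat.mul_eq,
    Nat.add_eq] at d
  choose! φ φ1 c hc ec k using fun t ht => decT h (t := t) ht
  choose! ψ ψ1 ψ2 using fun l hl => decL h qa (l := l) hl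
  choose! χ χ1 χ2 using fun l hl => Lk h (l := l) hl
  have mφ : ∀ e ∈ E, m1.testBit (φ e) = true := fun e he => (b1 _ (φ1 e (hE he))).2 ⟨_, hc e (hE he), ec e (hE he), e, he, k e (hE he)⟩
  have c1 := cub (Y := LL) φ (fun e he => ⟨φ1 e (hE he), mφ e he⟩) fun a ha b hb e => by
    have := mul_mem (mul_mem (inv_mem (k a (hE ha))) (h.VT ((h.eqv _ (h.TN (hc a (hE ha))) _ (h.TN (hc b (hE hb)))).1
      (by rw [ec a (hE ha), ec b (hE hb), e])))) (k b (hE hb))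
    simpa [mul_assoc] using this
  have c2 := cub (X := E ⊓ LL) (Y := Q) ψ (fun e he => ⟨ψ1 e he.2, (b0 _ (ψ1 e he.2)).2 ⟨e, he.1, ψ2 e he.2⟩⟩) fun a ha b hb e => by
    simpa [e, mul_assoc] using mul_mem (inv_mem (ψ2 a ha.2)) (ψ2 b hb.2)
  have ye : ∀ y ∈ Q ⊓ cm ZZ E, ∀ e ∈ E, e ∈ cm ZZ {y} := fun y hy e he => cm_sy (cm_one he hy.2) (EZ he)
  have cW : ∀ i < 128, v i ∈ Q ⊓ cm ZZ E ↔ (andF (g128 mW) m1 0xffffffffffffffffffffffffffffffff 16).testBit i = true := fun i hi => by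
    have lw := fun l hl => cm_one (h.mVS (k := 7) hi) (LW h (x := l) hl)
    refine ⟨fun q => andF_iff.2 ⟨(by decide +kernel : ∀ u < 128, Nat.testBit 0xffffffffffffffffffffffffffffffff u = true) i hi,
      fun a ha ta => ?_⟩, fun q => ⟨(vQ' h qa (by omega)).2 hi, HZ (VC h (h.vm i)).2, fun e he => cms (mem_cm1.1 ((rel (k e (hE he)) lw).1
        (mem_cm1.2 ⟨HZ (TC h (hc e (hE he))).2, (cvZ h (h.TN (hc e (hE he))) (ec e (hE he)) (by omega)).2 (((ckM _ (φ1 e (hE he))).1 i hi).1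
          (tb_eq _ _ ▸ (andF_iff.1 q).2 _ (φ1 e (hE he)) (mφ e he)))⟩))).2⟩⟩
    obtain ⟨c, hc, ec, e, he, k⟩ := (b1 a ha).1 ta
    exact tb_eq _ _ ▸ ((ckM a ha).1 i hi).2 ((cvZ h (h.TN hc) ec (by omega)).1 (mem_cm1.1 ((rel k lw).2 (ye _ q e he))).2)
  have c3 := cub (X := Q ⊓ cm ZZ E) (Y := WW) (m := andF (g64 mR2) m0 (andF (g64 mR1) m1 0xffffffffffffffff 16) 16) χ (fun y hy => by
    have yL := QL hy.1
    refine ⟨χ1 y yL, andF_iff.2 ⟨andF_iff.2 ⟨(by decide +kernel : ∀ u < 64, Nat.testBit 0xffffffffffffffff u = true) _ (χ1 y yL),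
      fun a ha ta => ?_⟩, fun u hu tu => ?_⟩⟩
    · obtain ⟨c, hc, ec, e, he, k⟩ := (b1 a ha).1 ta
      refine tb_eq _ _ ▸ ((ckM a ha).2.1 _ (χ1 y yL)).1 ?_
      rw [← ec, ← χ2 y yL]
      exact h.cmul (h.TN hc) (h.TN yL) (mem_cm1.1 ((rel k fun l hl => mem_cm1.2 ⟨h.TN hl, h.VS_le (cmL h hl yL)⟩).2
        (mem_cm1.2 ⟨(EC he).1, h.VS_le (ZW h (mem_cm1.1 (ye y hy e he)).2)⟩))).2
    · obtain ⟨e, he, k⟩ := (b0 u hu).1 tu
      have d := (ckM u hu).2.1 _ (χ1 y yL)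
      exact tb_eq _ _ ▸ d.2.2.2 (d.2.2.1 ▸ (cvZ h (h.TN yL) (χ2 y yL) (by omega)).1 (cms (mem_cm1.1
        ((Subgroup.mul_mem_cancel_right _ (ye y hy e he)).1 (cm_one hy.1 (qa.QM h mdA k)))).2)))
    fun a ha b hb e => qa.QW.le ⟨Q.mul_mem (Q.inv_mem ha.1) hb.1, (h.eqv _ (h.TN (QL ha.1)) _ (h.TN (QL hb.1))).1
      (by rw [χ2 a (QL ha.1), χ2 b (QL hb.1), e])⟩
  choose! ω ω1 ω2 using fun w hw => h.exVS (k := 7) (a := w) hw
  have c4 := cub (X := Q ⊓ cm ZZ E ⊓ WW) (Y := ⊥) ω (fun w hw => ⟨ω1 w hw.2, (cW _ (ω1 w hw.2)).1 ((ω2 w hw.2).symm ▸ hw.1)⟩)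
    fun a ha b hb e => by rw [← ω2 a ha.2, ← ω2 b hb.2, e, inv_mul_cancel]; exact one_mem _
  rw [inf_bot_eq, card_bot, mul_one] at c4
  have c5 := c3.trans ((Nat.mul_le_mul_left _ c4).trans (Nat.mul_comm _ _).le)
  rw [inf_right_comm, inf_eq_left.2 (inf_le_right.trans QL : E ⊓ Q ≤ LL)] at c2
  refine ⟨_, c1.trans ((Nat.mul_le_mul_left _ c2).trans (Nat.mul_assoc _ _ _).ge), d.1, d.2.imp (fun q e he => ?_) fun q =>
    ⟨(Nat.mul_le_mul_left _ c5).trans_lt q.1, q.2.imp (Nat.mul_le_mul_left _ (Nat.mul_le_mul_left _ c5)).trans_lt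
      fun ⟨q1, u, hu, ⟨u0, tu⟩, q2⟩ => ⟨c5.trans q1, ?_⟩⟩⟩
  · have := mφ e he
    rw [q.1, Nat.testBit_one_eq_true_iff_self_eq_zero] at this
    have eL := (rel (k e (hE he)) le_rfl).1 (h.VT ((h.ker (h.TN (hc e (hE he)))).1
      (by rw [ec e (hE he), this, ckX.2.2.2.2.2.2.2.2.2.2.2.2.2.1])))
    have t := (b0 _ (ψ1 e eL)).2 ⟨e, he, ψ2 e eL⟩
    rw [q.2, Nat.testBit_one_eq_true_iff_self_eq_zero] at t
    simpa [t, h.v0] using ψ2 e eL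
  · obtain ⟨e, he, r⟩ := (b0 u hu).1 tu
    refine ⟨e, he, fun n => absurd ((vQ' h qa (by omega)).1 ((Subgroup.mul_mem_cancel_right _ n).1 r)) (by omega), fun a ha => ?_⟩
    have aL := QL ha
    have t := q2 _ (χ1 a aL)
    rw [((ckM u hu).2.1 _ (χ1 a aL)).2.2.1, ← χ2 a aL] at t
    have lt : cv (M (ρ a)) (128 * u) < 128 := (cvS h (k := 7) (by decide) (h.TN aL) rfl (by omega)).1 ((LK h aL).2.2 _ (h.vm _))
    have z := conj_mem_of_norm (HZ (VC h (h.vm (128 * u))).2) (qa.es.comm_mem ha r)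
    rw [← inv_mul_cancel_left (v (128 * u)) e, h.vinv, cmr, h.cmv (h.TN aL)]
    exact mul_mem ((cW _ lt).2 t) ⟨ZQ z, le_cm (fun e he => EZ he) z⟩
theorem sc : H17.GS.SCl Q HH := by
  have sq := fun g (hg : g ∈ HH) => sqcj (HZ hg) fun a ha => qa.es.sq_mem (x := a) ha
  have bd : ∀ g ∈ HH, ∀ E ≤ cj g Q, E ⊓ Q ≤ Q ⊓ cm ZZ E := fun g hg E l a ha => ⟨ha.2, HZ (qa.es.le_cent ha.2), fun e he =>
    cjc hg ▸ (qa.es.J g).comm_mem (l ha.1) (l he)⟩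
  have p : PLs HH T Q ZZ := ⟨h.sG mdA (h.TC mdA), qa.QT, qa.TQ h mdA, qa.es.zp_le, HZ, fun a ha => qa.es.sq_mem ha, fun g hg k => by
    obtain ⟨f, c1, -, c2 | c2⟩ := ts h qa k (sq g hg)
    · exact eq_of_le_of_card_eq c2 (card_cj _ _)
    · rw [card_cj, qa.cQ] at c1
      exact absurd (c1.trans (Nat.mul_le_mul_left _ (card_le (bd g hg _ le_rfl)))) c2.1.not_ge⟩
  have key : ∀ g d, Bad HH Q g d → ∃ k ∈ HH, ∃ E f, E ≤ cj k Q ∧ Q ⊓ cj k Q ≤ Q ⊓ cm ZZ E ∧ #(Q ⊓ cm (Q ⊓ cj g Q) {d}) ≤ 32 * #(Q ⊓ cj g Q) ∧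
      #(Q ⊓ cm ZZ E) ≤ 128 ∧ ∃ e, Bad HH Q k e ∧ (∀ a ∈ Q, ⁅a, e⁆ ∈ Q ⊓ cm ZZ E) ∧ f = 0 := fun g d b => by
    obtain ⟨k, hk, E, l1, l2, l3, c1, c2, c3, n, b'⟩ := p.main b
    obtain ⟨f, c4, c5, c6⟩ := ts h qa l1 fun e he => sq k hk e (l2 he)
    have e : E ⊓ Q = Q ⊓ cj k Q := le_antisymm (le_inf inf_le_right (inf_le_left.trans l2)) (le_inf l3 inf_le_left)
    have l4 := bd k hk E l2
    rw [e] at c4 l4
    obtain ⟨c6, e, he, ne, c7⟩ := (c6.resolve_left n).2.resolve_left fun q => by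
      rw [qa.cQ] at c3
      have := c3.trans (Nat.mul_le_mul c4 c4)
      rw [Nat.mul_comm f, Nat.mul_assoc, Nat.mul_comm 8192, Nat.mul_comm _ f] at this
      exact absurd ((Nat.le_of_mul_le_mul_left this (card_pos _)).trans (Nat.mul_le_mul_left _ (Nat.mul_le_mul_left _ (card_le l4)))) q.not_ge
    exact ⟨k, hk, E, 0, l2, l4, by rw [← c1, ← c2]; exact c4.trans (Nat.mul_le_mul_right _ c5), c6, e, b' e he ne, c7, rfl⟩
  refine p.SC fun g d b => ?_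
  obtain ⟨k, hk, E, -, l1, l2, -, c1, e, b', c2, -⟩ := key g d b
  obtain ⟨-, -, -, -, -, -, c3, -⟩ := key k e b'
  have zb : ZZ ≤ Q ⊓ cj k Q := le_inf p.ZA (p.Zc hk)
  have n := p.nA zb inf_le_left
  have := cbdq inf_le_left n l2 (inf_le_left.trans n) (p.nC hk zb inf_le_right b'.hd) c2
  have := card_pos (Q ⊓ cj k Q)
  rw [qa.cQ] at *
  nlinarith
theorem le (hO : Oc {2}ᶜ HH = ⊥) : LE Q (v 1) := qa.large h mdA hO (sc h qa)
end CA
end H10.RF
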