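import Cfsg.Agent.H10.RF.E3

/-! The centralizer of a root involution. -/

set_option autoImplicit false
set_option linter.unusedSectionVars false
set_option linter.unusedVariables false
set_option maxRecDepth 100000
open Cfsg Subgroup H19 H0 H15
open scoped commutatorElement Pointwise
namespace H10.RF
local notation "cj" => H19.cj
namespace CA
variable {G : Type*} [Group G] [Finite G] {V : Subgroup G} {ρ : G → ℕ} {v : ℕ → G} {A B D E F J N Q X Y : Subgroup G}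
  {a b c d e g k l n q t u w x y : G} {i j : ℕ}
local notation "T" => TG V ρ gT 4
local notation "HH" => C[v 1]
local notation "CC" => N(V) ⊓ C[v 1]
local notation "WW" => VS v 7
local notation "UU" => VS v 5
local notation "LL" => TG V ρ gR 6
local notation "ZZ" => zpowers (v 1)
local notation "KK" => N(V) ⊓ C[v 1] ⊓ cm (VS v 7) V
local notation:max "Ai" n:max i:max => mv (mt ubA dcA (ρ n)) i
local notation "NN" => Q ⊔ zpowers x
set_option quotPrecheck false in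
local notation "YY" => C[v 1] ⊓ cm Q {x}
local notation "PN" => C[v 1] ⊓ N(Q ⊔ zpowers x)
local notation "XW" => C[v 1] ⊓ cm Q {v 128}
local notation "DD" => Q ⊓ C(VS v 5)
/-- a maximal singular subspace -/
structure Wl (U D X : Subgroup G) : Prop where
  l1 : U ≤ X
  l2 : X ≤ D
  s : ∀ a ∈ X, a * a = 1
  n : D ≤ N(X)
  c : #X = 4 * #U
  sc : D ⊓ C(X) ≤ X
theorem Wl.dec {U : Subgroup G} (c : #D ≤ 16 * #U) (h1 : Wl U D X) (h2 : Wl U D Y) (m : X ⊓ Y ≤ U) (hd : d ∈ D) :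
    ∃ a ∈ X, ∃ b ∈ Y, d = a * b := by
  have := card_sup_mul_inf (h2.l2.trans h1.n)
  rw [le_antisymm m (le_inf h1.l1 h2.l1), h1.c, h2.c, ← Nat.mul_assoc, Nat.mul_right_cancel_iff (card_pos U)] at this
  exact (mem_sup_of_norm (h2.l2.trans h1.n)).1 ((eq_of_le_of_card_ge (sup_le h1.l2 h2.l2) (by omega)).ge hd)
theorem four {U : Subgroup G} (c : #D ≤ 16 * #U) (h1 : Wl U D A) (h2 : Wl U D B) (h3 : Wl U D X) (h4 : Wl U D Y) (m12 : A ⊓ B ≤ U)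
    (m13 : A ⊓ X ≤ U) (m14 : A ⊓ Y ≤ U) (m23 : B ⊓ X ≤ U) (m24 : Y ⊓ B ≤ U) (m34 : X ⊓ Y ≤ U) : False := by
  have := card_pos U
  obtain ⟨c0, hc, nc⟩ := ex_out (A := X) (B := U) (by rw [h3.c]; omega)
  obtain ⟨a, ha, b, hb, rfl⟩ := h1.dec c h2 m12 (h3.l2 hc)
  obtain ⟨d, hd, e, he, ea⟩ := h4.dec c h2 m24 (h1.l2 ha)
  have na : a ∉ U := fun k => nc (m23 ⟨mul_mem (h2.l1 k) hb, hc⟩)
  have k : ∀ b ∈ B, a * b * (a * b) = 1 → b ∈ B ⊓ C[a] := fun b hb s => ⟨hb, mem_cent1.2 (by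
    rw [← inv_eq_of_mul_eq_one_right s, mul_inv_rev, inv_eq_of_mul_eq_one_right (h1.s a ha), inv_eq_of_mul_eq_one_right (h2.s b hb)])⟩
  have ed : a * e = d := by rw [ea, mul_assoc, h2.s e he, mul_one]
  have lt : B ⊓ C[a] < B := inf_le_left.lt_of_ne fun q => na (m12 ⟨ha, h2.sc ⟨h1.l2 ha, le_cent1_iff.1 (q.ge.trans inf_le_right)⟩⟩)
  have := two_mul (le_inf h2.l1 (le_cent1_iff.2 (cent_mono h1.l1 (ab_sq h1.s ha)))) (by
    obtain ⟨j, ej⟩ := card_dvd lt.le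
    have := card_lt lt
    rw [h2.c] at *
    rcases j with _ | _ | j <;> nlinarith) (k e he (ed ▸ h4.s d hd)) (k b hb (h3.s _ hc))
      (fun q => na (m14 ⟨ha, ea ▸ mul_mem hd (h4.l1 q)⟩)) fun q => nc (m13 ⟨mul_mem ha (h1.l1 q), hc⟩)
  exact nc (m34 ⟨hc, by rw [ea, mul_assoc]; exact mul_mem hd (h4.l1 this)⟩)
theorem z3 (o : x ^ 3 = 1) (ht : t ∈ zpowers x) : t = 1 ∨ t = x ∨ t = x * x := by
  obtain ⟨k, rfl⟩ := mem_powers_iff_mem_zpowers.2 ht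
  have := Nat.mod_lt k (by decide : 0 < 3)
  simp only [pow_eq_pow_mod k o]
  interval_cases k % 3 <;> simp [_root_.sq]
/-- conjugacy modulo a normal subgroup -/
def Rw (P Q : Subgroup G) (a w : G) : Prop := ∃ p ∈ P, p * w * p⁻¹ * a ∈ Q
theorem rwc (hd : d ∈ X) : Rw X Q a (d * w * d⁻¹) ↔ Rw X Q a w :=
  ⟨fun ⟨p, hp, k⟩ => ⟨_, mul_mem hp hd, cjcj p d w ▸ k⟩, fun ⟨p, hp, k⟩ => ⟨_, mul_mem hp (inv_mem hd), by simpa [mul_assoc] using k⟩⟩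
theorem rwq (n : X ≤ N(Q)) (k : w * u⁻¹ ∈ Q) : Rw X Q a u → Rw X Q a w := fun ⟨p, hp, r⟩ =>
  ⟨p, hp, by simpa [mul_assoc] using mul_mem (conj_mem_of_norm (n hp) k) r⟩
theorem ckZ : allTo2 (fun i => force i fun i => bimp (Nat.blt (cv (M (getP gA 2)) i) 128)
    (anyTo (fun j => Nat.blt (Nat.xor (cv (M (getP gA 2)) (Nat.mul 128 j)) i) 128) 16)) 32 64 = true := by decide +kernel
theorem ckU : ∀ i < 32, ∃ k < 64, cv (M (getP tR k)) 128 ^^^ i < 2 := by decide +kernel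
variable (h : IF V ρ v ubA dcA)
include h
theorem sW : ∀ a ∈ WW, a * a = 1 := fun a ha => h.sq a (h.VS_le ha)
theorem Lw : LL ≤ cm UU {v 128} := h.TGle (Vcm h h.VS_le (zpowers_le.2 (h.vm 128)) |>.trans (cm_one (mem_zpowers _)))
  fun a ha j hj e => mem_cm1.2 ⟨TU h (h.mT ha (ckG.1 j hj).2.2.2.1 (e.trans (ckG.1 j hj).2.2.2.2.1)),
    (cvS h (by decide) ha e (by decide)).2 (ckG.1 j hj).2.2.2.2.2⟩
variable (qa : QA V ρ v Q x)
include qa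
theorem exq (hl : l ∈ LL) : ∃ q ∈ Q, ρ q = ρ l := by
  obtain ⟨u, hu, q, hq, rfl⟩ := (mem_sup_of_norm ((QL' h qa).trans h.TN)).1 (qa.LQ.ge hl)
  exact ⟨q, hq, (h.Vmul (h.TN (QL' h qa hq)) hu).symm⟩
theorem QU : Q ≤ N(UU) := qa.QT.trans (TU h)
theorem QZ (ha : a ∈ Q) : Q ≤ cm ZZ {a} := (qa.QM h mdA).trans (cm_one ha)
theorem KV : KK = V ⊔ (NN) := by rw [(Ke h qa.toXS).1, ← qa.LQ, sup_assoc]
theorem xQ : zpowers x ≤ N(Q) := zpowers_le.2 (qa.CQ qa.xC)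
theorem VN : V ≤ N(NN) := fun u hu => mem_norm_of_cj_le (by
  rw [cj_sup, cj_zpowers, cj_of_mem_norm (qa.CQ (VC h hu)), cjcm]
  exact sup_le le_sup_left (zpowers_le.2 (mul_mem (mem_sup_left (WQ h qa (cms ((xK h qa.toXS).2.2 u hu)))) (mem_sup_right (mem_zpowers x)))))
theorem KN {m : ℕ} (hk : k ∈ KK) (e : k ^ m ∈ NN) (o : Odd m) : k ∈ NN := by
  obtain ⟨u, hu, b, hb, rfl⟩ := (mem_sup_of_norm' (VN h qa)).1 ((KV h qa).le hk)
  refine odd_mem ?_ e o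
  convert mul_mem (conj_mem_of_norm (VN h qa hu) hb) hb using 1
  rw [inv_eq_of_mul_eq_one_right (h.sq u hu)]; group
theorem three (hy : y ∈ CC) (o : y ^ 3 = 1) (f : Q ⊓ cm ZZ {y} ≤ ZZ) : y ∈ NN := by
  obtain ⟨c, hc, e, he, q⟩ := into3 h hy ((PiN.prime_pow Nat.prime_three 1).dvd (orderOf_dvd_of_pow_eq_one o))
  have m := mul_mem (mul_mem hc hy) (inv_mem hc)
  refine KN h qa ?_ (o ▸ one_mem _) (by decide)
  rcases ckX.2.2.2.2.2.2.2.2.2.2.2.1 e he with d | ⟨d1, d2, d3⟩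
  · simpa [mul_assoc] using conj_mem_of_norm' (CK h hc) ((mK h m q).2 d)
  have k := cm_cj1 (inv_mem (HZ hc.2)) (cm_sy (mem_cm1.2 ⟨HZ m.2, (cvZ h m.1 q (by omega)).2 d3⟩) (HZ (VC h (h.vm _)).2))
  have := conj_mem_of_norm (HZ hc.2) (f ⟨conj_mem_of_norm (inv_mem (qa.CQ hc)) ((vQ' h qa (by omega)).2 d2), by simpa [mul_assoc] using k⟩)
  rw [← h.VS1] at this
  simp only [mul_assoc, inv_inv, mul_inv_cancel_left, mul_inv_cancel, mul_one] at this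
  exact absurd ((h.memVS (by decide) (by omega)).1 this) (by omega)
theorem xnQ : x ∉ Q := fun k => by
  have := card_le ((le_inf le_rfl (QZ h qa k)).trans qa.fq)
  rw [qa.cQ, qa.es.card_zp] at this; omega
theorem trV (hl : l ∈ LL) (n : l ∉ Q) : Rw (CC) Q (v 128) l := by
  obtain ⟨u, hu, k⟩ := decL h qa hl
  obtain rfl | ⟨d1, d2⟩ := (ckA.1 u hu).2.2.2.2.2.2.2.1
  · exact absurd (by simpa [h.v0] using k) n
  obtain ⟨c, hc, e⟩ := exC h d1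
  have m := mul_mem (conj_mem_of_norm' (qa.CQ (VC h (h.vm (128 * u)))) k) (WQ h qa (h.mVS d2))
  rw [Nat.xor_comm, h.vx, ← h.acg hc.1 e] at m
  exact ⟨_, inv_mem hc, by simpa [mul_assoc, ← mul_assoc (v _) (v _), h.vv] using conj_mem_of_norm' (qa.CQ hc) m⟩
theorem zz (ht : t ∈ N(V)) (hu : u ∈ N(V)) (e : ρ t = getP gA 2) (e' : ρ u = getP gA 2) (s : t * t ∈ Q) (s' : u * u ∈ Q) :
    ∃ a ∈ V, a * t * a⁻¹ * u⁻¹ ∈ Q := by
  obtain ⟨i, hi, ei⟩ := h.vs _ (conj_mem_of_norm ht ((h.eqv _ ht _ hu).1 (e.trans e'.symm)))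
  obtain rfl : u = v i * t := by rw [ei]; group
  have d := (allTo2_iff _ _ _).1 ckZ i hi
  simp only [force_eq, bimp_iff, anyTo_iff, Nat.blt_eq, xor_eq', Nat.mul_eq] at d
  obtain ⟨j, hj, d⟩ := d ((cvS h (k := 7) (by decide) ht e hi).1 (qa.QW.le ⟨by
    rw [commutatorElement_def, h.vinv, csq h.sq (conj_mem_of_norm ht (h.vm i)) (h.vm i)]
    simpa [mul_assoc] using mul_mem s' (inv_mem s), cmN ht (h.vm i)⟩))
  refine ⟨_, h.vm (128 * j), ?_⟩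
  rw [cjcm, mul_inv_rev, mul_assoc, mul_inv_cancel_left, ← commutatorElement_inv, h.cmv ht, h.vinv, h.vinv, ← h.vx, e]
  exact WQ h qa (h.mVS d)
theorem Ye : cm Q {x} = cm Q (NN : Subgroup G) := le_antisymm (fun m hm => ⟨hm.1, fun g hg => cms (mem_cm1.1
  (sup_le (le_cm1 hm.1) (zpowers_le.2 (cm_sy hm (qa.CQ qa.xC))) hg)).2⟩) (cm_one (mem_sup_right (mem_zpowers x)))
theorem KY : KK ≤ YY := KV h qa ▸ sup_le (fun u hu => ⟨(VC h hu).2, mem_cm1.2 ⟨qa.CQ (VC h hu), WQ h qa (cms ((xK h qa.toXS).2.2 u hu))⟩⟩)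
  (sup_le (le_inf qa.es.le_cent (le_cm1 (qa.CQ qa.xC))) (zpowers_le.2 ⟨qa.xC.2, cent_cm (qa.CQ qa.xC) (mem_cent1_self x)⟩))
theorem KX : KK ≤ XW := fun k hk => ⟨hk.1.2, mem_cm1.2 ⟨qa.CQ hk.1, WQ h qa (hk.2.2 _ (h.vm _))⟩⟩
variable (lq : LE Q (v 1))
include lq
theorem nW' (hg : g ∈ HH) (k : g ∈ N(WW)) : g ∈ N(V) := qa.nW h mdA lq ⟨hg, qa.QW.symm ▸ k⟩
theorem XU : XW ≤ N(UU) := fun g hg => mem_norm_of_cj_le fun y hy => by
  obtain ⟨u, hu, rfl⟩ := mem_cj'.1 hy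
  obtain ⟨i, hi, rfl⟩ := h.exVS hu
  obtain ⟨k, hk, d⟩ := ckU i hi
  obtain ⟨l, hl, e⟩ := exL h hk
  obtain ⟨q, hq, e'⟩ := exq h qa hl
  have m := conj_mem_of_norm (lq.norm hg.1) hq
  have c := (mem_cm1.1 hg.2).2
  have := mul_mem (mem_cm1.1 (cm_mul1 (QU h qa c) (mem_cm1.2 ⟨QU h qa m, ZU h (qa.es.comm_mem m c)⟩) (Lw h (QL' h qa m)))).2
    (ZU h (conj_mem_of_norm (HZ hg.1) (mZ h d)))
  rwa [← cjcm, ← cmc, ← cjmul, h.cmv (h.TN (QL' h qa hq)), e', e, ← h.vx, ← Nat.xor_assoc, show mv _ 128 ^^^ 128 = cv _ 128 from rfl,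
    Nat.xor_self, Nat.zero_xor] at this
theorem Wg (hg : g ∈ HH) : cj g WW ≤ Q := cj_le_of_mem_norm (lq.norm hg) (WQ h qa)
theorem sc' (hg : g ∈ HH) : Q ⊓ C(cj g WW) ≤ cj g WW := by
  rw [← cj_cent, ← cj_of_mem_norm (lq.norm hg), ← cj_inf]
  exact cj_mono _ fun a ha => qa.QW.le ⟨ha.1, qa.cW ⟨ha.1, qa.QW.symm ▸ ha.2⟩⟩
theorem big (hg : g ∈ HH) (c : 64 ≤ #(WW ⊓ cj g WW)) : g ∈ N(V) := by
  refine inv_mem_iff.1 (h.memN mdA (cj_le_iff.2 fun u hu => ?_))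
  rw [inv_inv]
  refine mem_cj.2 (nW' h qa lq (mul_mem (mul_mem (inv_mem hg) (VC h hu).2) hg) (mem_cj.1 (cj_norm g _ ▸
    mem_norm_of_cj_le fun y hy => ?_)))
  obtain ⟨w, hw, rfl⟩ := mem_cj'.1 hy
  have wQ := Wg h qa lq hg hw
  have m := cms (cmL h (QL' h qa wQ) (h.VT hu))
  refine cjcm u w ▸ mul_mem (by_contra fun n => ?_) hw
  have s := sq_cj (sW h) g
  have e := two_eq (D := WW ⊓ C[w]) (le_inf inf_le_left (inf_le_right.trans (le_cent1_iff.2 (ab_sq s hw)))) inf_le_left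
    (by rw [h.cVS (by decide)]; omega) ⟨m, mem_cent1.2 (by
      have : ⁅u, w⁆ * w * (⁅u, w⁆ * w) = 1 := by rw [← cjcm, ← cjmul, s w hw, mul_one, mul_inv_cancel]
      rw [← inv_eq_of_mul_eq_one_right this, mul_inv_rev, inv_eq_of_mul_eq_one_right (s w hw),
        inv_eq_of_mul_eq_one_right (sW h _ m)])⟩ fun k => n k.2
  exact n (cm1.2 (cent_le_cent1 (qa.cW ⟨wQ, qa.QW.symm ▸ le_cent1_iff.1 (e.ge.trans inf_le_right)⟩) (h.cent.ge hu)) ▸ one_mem _)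
theorem big' (hg : g ∈ HH) (l : UU ≤ cj g WW) (n : ¬ WW ⊓ cj g WW ≤ UU) : g ∈ N(V) :=
  big h qa lq hg (pw2' (n := 5) (h.pg.of_le (inf_le_left.trans h.VS_le)) (h.cVS (k := 5) (by decide) ▸
    card_lt ((le_inf (UW h) l).lt_of_ne fun e => n e.ge)))
theorem Ug (hg : g ∈ XW) : UU ≤ cj g WW := cj_of_mem_norm (XU h qa lq hg) ▸ cj_mono g (UW h)
theorem two' (hg : g ∈ XW) (hi : i < 2048) (n : 256 ≤ i) (k : g * v i * g⁻¹ ∈ LL) : g ∈ N(V) := by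
  have d := (allTo2_iff _ _ _).1 ckV i hi
  simp only [force_eq, band_iff, bimp_iff, allTo_iff, Nat.blt_eq] at d
  refine big' h qa lq hg.1 (Ug h qa lq hg) fun l => absurd (d.2.1 fun j hj => ?_) (by omega)
  obtain ⟨a, ha, e⟩ := h.exTG hj ((band_iff _ _).1 (ckG.1 j hj).1).1
  obtain ⟨q, hq, e'⟩ := exq h qa ha
  have ql := QL' h qa hq
  have := l ⟨cmc g q _ ▸ cmL h (QL' h qa (conj_mem_of_norm (lq.norm hg.1) hq)) k, conj_mem_cj.2 (cmL h ql (h.VT (h.vm i)))⟩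
  rw [← cj_of_mem_norm (XU h qa lq hg), conj_mem_cj] at this
  exact (cvS h (k := 5) (by decide) (h.TN ql) (e'.trans e) hi).1 this
theorem mP (hg : g ∈ HH) (k : g * x * g⁻¹ ∈ NN) : g ∈ PN := ⟨hg, mem_norm_of_cj_le (by
  rw [cj_sup, cj_zpowers, cj_of_mem_norm (lq.norm hg)]; exact sup_le le_sup_left (zpowers_le.2 k))⟩
theorem thr (hg : g ∈ HH) (k : g * x * g⁻¹ ∈ N(V)) : g ∈ PN := mP h qa lq hg (three h qa ⟨k, conj_mem_of_norm (le_normalizer hg) qa.xC.2⟩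
  (by rw [conj_pow, qa.o, mul_one, mul_inv_cancel]) (by
    have := cj_mono g qa.fq
    rwa [cj_inf, cj_cm1, cj_of_mem_norm (HZ hg), cj_of_mem_norm (lq.norm hg)] at this))
theorem CP : CC ≤ PN := fun c hc => thr h qa lq hc.2 (conj_mem_of_norm (le_normalizer hc.1) qa.n)
theorem cD : #(DD) = 512 := by
  have := qa.es.card_cent (ZU h (mem_zpowers _)) ((UW h).trans (WQ h qa))
  rw [qa.cQ, h.cVS (by decide)] at this; omega
theorem wl (hg : g ∈ XW) : Wl UU (DD) (cj g WW) :=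
  have s := sq_cj (sW h) g
  have l := Wg h qa lq hg.1
  ⟨Ug h qa lq hg, le_inf l ((ab_sq s).trans (cent_mono (Ug h qa lq hg))), s,
    inf_le_left.trans (qa.es.norms_of_le (Ug h qa lq hg (ZU h (mem_zpowers _))) l),
    by rw [card_cj, h.cVS (by decide), h.cVS (by decide)]; rfl, fun a ha => sc' h qa lq hg.1 ⟨ha.1.1, ha.2⟩⟩
theorem pw (hg : g ∈ XW) (hk : k ∈ XW) (n : g⁻¹ * k ∉ N(V)) : cj g WW ⊓ cj k WW ≤ UU := by
  have m := mul_mem (inv_mem hg) hk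
  have := cj_mono g (not_not.1 (_root_.mt (big' h qa lq m.1 (Ug h qa lq m)) n))
  rwa [cj_inf, cj_cj, mul_inv_cancel_left, cj_of_mem_norm (XU h qa lq hg)] at this
theorem four' (ha : a ∈ XW) (hb : b ∈ XW) (hc : c ∈ XW) (hd : d ∈ XW) (n1 : a⁻¹ * b ∉ N(V)) (n2 : a⁻¹ * c ∉ N(V)) (n3 : a⁻¹ * d ∉ N(V))
    (n4 : b⁻¹ * c ∉ N(V)) (n5 : d⁻¹ * b ∉ N(V)) (n6 : c⁻¹ * d ∉ N(V)) : False :=
  four (by rw [cD h qa lq, h.cVS (by decide)]; decide) (wl h qa lq ha) (wl h qa lq hb) (wl h qa lq hc) (wl h qa lq hd) (pw h qa lq ha hb n1)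
    (pw h qa lq ha hc n2) (pw h qa lq ha hd n3) (pw h qa lq hb hc n4) (pw h qa lq hd hb n5) (pw h qa lq hc hd n6)
theorem XP : XW ≤ PN := fun d hd => thr h qa lq hd.1 (by_contra fun n => by
  have m := conj_mem_of_norm (le_normalizer hd) (KX h qa (xK h qa.toXS))
  have nd : d ∉ N(V) := fun k => n (conj_mem_of_norm (le_normalizer k) qa.n)
  refine four' h qa lq (one_mem _) m hd (inv_mem m) (by simpa using n) (by simpa using nd) (by rwa [inv_one, one_mul, inv_mem_iff])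
    (fun k => nd (by simpa [mul_assoc] using mul_mem k qa.n)) (fun k => n (odd_mem (n := 3) (by rwa [inv_inv] at k)
      (by rw [conj_pow, qa.o, mul_one, mul_inv_cancel]; exact one_mem _) (by decide))) fun k => nd ?_
  simpa [mul_assoc] using inv_mem (mul_mem qa.n k))
theorem PQ : PN ≤ N(Q) := inf_le_left.trans lq.norm
theorem PY : PN ≤ N(YY) := norms_inf (norms_of_le inf_le_left) (Ye h qa ▸ cm_nms (PQ h qa lq) inf_le_right)
theorem YP : YY ≤ PN := fun y hy => mP h qa lq hy.1 (cjcm y x ▸ mul_mem (mem_sup_left (mem_cm1.1 hy.2).2) (mem_sup_right (mem_zpowers x)))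
theorem Pc (hw : w ∈ PN) : w ∈ YY ∨ w * x * w⁻¹ * x ∈ Q := by
  obtain ⟨q, hq, t, ht, e⟩ := (mem_sup_of_norm (xQ h qa)).1 (conj_mem_of_norm hw.2 (mem_sup_right (mem_zpowers x)))
  rcases z3 qa.o ht with rfl | rfl | rfl
  · rw [mul_one] at e
    exact absurd (by simpa [mul_assoc] using conj_mem_of_norm' (PQ h qa lq hw) (show w * x * w⁻¹ ∈ Q from e.symm ▸ hq)) (xnQ h qa)
  · exact .inl ⟨hw.1, mem_cm1.2 ⟨PQ h qa lq hw, by rwa [commutatorElement_def, e, mul_inv_cancel_right]⟩⟩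
  · exact .inr (by rwa [e, mul_assoc, mul_assoc, ← pow_three, qa.o, mul_one])
theorem ninv (hg : g ∈ HH) (e : w = g * v 128 * g⁻¹) : w * x * w⁻¹ * x ∉ Q := fun k => by
  have ZQ := qa.es.zp_le
  have xZ := HZ qa.xC.2
  have c := cbdq ZQ (qa.es.le_cent.trans HZ) (ZU h) (((UW h).trans (WQ h qa)).trans (qa.es.le_cent.trans HZ)) (HZ (VC h (h.vm 128)).2)
    fun q hq => (mem_cm1.1 (Lw h (QL' h qa hq))).2
  have e1 : ∀ g ∈ HH, ∀ w, cj g (Q ⊓ cm ZZ {w}) = Q ⊓ cm ZZ {g * w * g⁻¹} := fun g hg w => by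
    rw [cj_inf, cj_cm1, cj_of_mem_norm (HZ hg), cj_of_mem_norm (lq.norm hg)]
  have wH : w ∈ HH := e ▸ conj_mem_of_norm (le_normalizer hg) (VC h (h.vm _)).2
  have w2 : w * w = 1 := by rw [e, ← cjmul, h.vv, mul_one, mul_inv_cancel]
  have d := infbd (X := Q ⊓ cm ZZ {w}) (Y := Q ⊓ cm ZZ {x * w * x⁻¹}) inf_le_left inf_le_left
    (inf_le_left.trans (qa.es.norms_of_le (le_inf ZQ (le_cm1 (HZ wH)) (mem_zpowers _)) inf_le_left))
  have l : Q ⊓ cm ZZ {w} ⊓ (Q ⊓ cm ZZ {x * w * x⁻¹}) ≤ ZZ := fun a ha => qa.fq ⟨ha.1.1, by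
    have xw := conj_mem_of_norm (le_normalizer qa.xC.2) wH
    have := cm_mul1 (HZ (mul_mem xw wH)) (cm_mul1 (HZ xw) ha.2.2 ha.1.2) (QZ h qa k ha.1.1)
    rw [show x * w * x⁻¹ * w * (w * x * w⁻¹ * x) = x * x by rw [mul_assoc _ w, mul_assoc w, mul_assoc w, ← mul_assoc w, w2]; group] at this
    exact cm_zp (mul_mem xZ xZ) this ⟨2, by
      simp only [zpow_ofNat]; rw [← _root_.sq, ← pow_mul, show 2 * 2 = 3 + 1 from rfl, pow_succ, qa.o, one_mul]⟩⟩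
  have := card_le l
  rw [← e1 x qa.xC.2, card_cj] at d
  rw [← card_cj g (_ ⊓ _), e1 g hg, ← e, qa.cQ, h.cVS (by decide)] at c
  rw [← e1 x qa.xC.2, qa.es.card_zp] at *
  rw [qa.cQ] at d
  nlinarith
theorem zt (hw : w ∈ CC) (hy : w ∈ YY) (s : w * w ∈ Q) (n : w ∉ LL) :
    ∃ c ∈ CC, ∃ t ∈ N(V), ρ t = getP gA 2 ∧ c * w * c⁻¹ * t⁻¹ ∈ Q ∧ t * t ∈ Q := by
  have QL := QL' h qa
  obtain ⟨c, hc, q⟩ := into h (TC h) (fun k e => by rw [h.cT] at e; omega) hw ((PiN.prime_pow Nat.prime_two 3).dvd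
    (orderOf_dvd_of_pow_eq_one (by rw [show 2 ^ 3 = 2 * 4 from rfl, pow_mul, _root_.sq, qa.es.pow4 s])))
  obtain ⟨a, ha, b, hb, eb, r⟩ := decT h q
  have TL := (TC h).trans (CL h)
  have s1 := conj_mem_of_norm (qa.CQ hc) s
  rw [cjmul] at s1
  rcases (ckA.1 a ha).2.2.2.2.1 with rfl | d | d | d
  · exact absurd (by simpa [mul_assoc] using (conj_mem_of_norm' (CL h hc) ((rel r le_rfl).1 (h.VT ((h.ker (h.TN hb)).1
      (eb.trans ckX.2.2.2.2.2.2.2.2.2.2.2.2.2.1)))))) n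
  · obtain ⟨i, hi, ei⟩ := Lk h (l := b * b) (by
      simpa [mul_assoc] using mul_mem (mul_mem (QL s1) (conj_mem_of_norm' (TL q) (inv_mem r))) (inv_mem r))
    exact absurd (by rw [← ei, h.mul _ (h.TN hb) _ (h.TN hb), eb]) (d i hi)
  · have m := (mem_cm1.1 ((rel r (le_cm1 (CL h qa.xC))).2 (mem_cm1.2 ⟨TL q, QL (mem_cm1.1
      (conj_mem_of_norm (PY h qa lq (CP h qa lq hc)) hy).2).2⟩))).2
    obtain ⟨i, hi, ei⟩ := Lk h m
    refine absurd ?_ (d i hi)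
    rw [← ei, ← eb, ← qa.e, ← h.mul _ (h.TN hb) _ qa.n, ← h.mul _ qa.n _ (h.TN hb), ← h.mul _ (h.TN m) _ (mul_mem qa.n (h.TN hb))]
    simp [commutatorElement_def, mul_assoc]
  obtain ⟨k, hk, ek⟩ := cjx h d (h.TN hb) eb
  have bC := conj_mem_of_norm (le_normalizer hk) (TC h hb)
  have m := conj_mem_of_norm (CL h bC) (conj_mem_of_norm (CL h hk) r)
  obtain ⟨p, hp, u, hu, e⟩ := (mem_sup_of_norm (qa.VQ h mdA)).1 ((sup_comm V Q).le (qa.LQ.ge m))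
  have wC := conj_mem_of_norm (le_normalizer (mul_mem hk hc)) hw
  have s2 := conj_mem_of_norm (qa.CQ (mul_mem hk hc)) s
  rw [cjmul] at s2
  have e2 : u * (k * b * k⁻¹) = p⁻¹ * (k * c * w * (k * c)⁻¹) := by rw [← inv_mul_cancel_left p u, ← e]; group
  refine ⟨_, mul_mem hk hc, _, mul_mem (h.VN hu) bC.1, (h.Vmul bC.1 hu).trans ek, by rwa [e2, mul_inv_rev p⁻¹, mul_inv_cancel_left, inv_inv], ?_⟩
  rw [e2]
  generalize k * c * w * (k * c)⁻¹ = y at *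
  simpa [mul_assoc] using mul_mem (mul_mem (inv_mem hp) (conj_mem_of_norm (qa.CQ wC) (inv_mem hp))) s2
theorem allc (n : ¬ XW ≤ N(V)) (hw : w ∈ YY) (s : w * w ∈ Q) (nq : w ∉ Q) : Rw (PN) Q (v 128) w := by
  obtain ⟨d, hd, nd⟩ := SetLike.not_le_iff_exists.1 n
  have VX := fun i => KX h qa (LK h (h.VT (h.vm i)))
  have tr : ∀ l ∈ LL, l ∉ Q → Rw (PN) Q (v 128) l := fun l hl n => let ⟨c, hc, e⟩ := trV h qa hl n; ⟨c, CP h qa lq hc, e⟩
  obtain ⟨i, hi, i1, k⟩ : ∃ i < 2048, 256 ≤ i ∧ d⁻¹ * v i * d⁻¹⁻¹ ∈ N(V) := by_contra fun n => by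
    have f : ∀ a < 4, ∀ b < 4, a ≠ b → (v (256 * a) * d)⁻¹ * (v (256 * b) * d) ∉ N(V) := fun a ha b hb e k => 
      have d := (by decide : ∀ a < 4, ∀ b < 4, a ≠ b → 256 * a ^^^ 256 * b < 2048 ∧ 256 ≤ 256 * a ^^^ 256 * b) a ha b hb e
      n ⟨_, d.1, d.2, by simpa [h.vx, h.vinv, mul_assoc] using k⟩
    exact four' h qa lq (mul_mem (VX _) hd) (mul_mem (VX _) hd) (mul_mem (VX _) hd) (mul_mem (VX _) hd) (f 0 (by decide) 1 (by decide) (by decide))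
      (f 0 (by decide) 2 (by decide) (by decide)) (f 0 (by decide) 3 (by decide) (by decide)) (f 1 (by decide) 2 (by decide) (by decide))
      (f 3 (by decide) 1 (by decide) (by decide)) (f 2 (by decide) 3 (by decide) (by decide))
  have dP := inv_mem (XP h qa lq hd)
  obtain ⟨c', hc', t', ht', e', q', s'⟩ := zt h qa lq ⟨k, (conj_mem_of_norm (le_normalizer (inv_mem hd)) (VX i)).1⟩
    (conj_mem_of_norm (PY h qa lq dP) (KY h qa (LK h (h.VT (h.vm i))))) (by rw [← cjmul, h.vv, mul_one, mul_inv_cancel]; exact one_mem _)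
    fun l => nd (inv_mem_iff.1 (two' h qa lq (inv_mem hd) hi i1 l))
  have n := PQ h qa lq
  have r := rwq n (u := c' * _ * c'⁻¹) (w := t') (by simpa [mul_assoc] using inv_mem q') ((rwc (CP h qa lq hc')).2 ((rwc dP).2
    (tr _ (h.VT (h.vm i)) fun q => absurd ((vQ' h qa hi).1 q) (by omega))))
  obtain ⟨p, hp, l⟩ := (h.sG mdA ((TC h).trans (CP h qa lq))).scj_le (zpowers_le.2 (YP h qa lq hw)) (piG_zpowers.2
    ((PiN.prime_pow Nat.prime_two 3).dvd (orderOf_dvd_of_pow_eq_one (by rw [show 2 ^ 3 = 2 * 4 from rfl, pow_mul, _root_.sq, qa.es.pow4 s]))))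
  refine (rwc hp).1 (by_contra fun nr => nr ?_)
  obtain ⟨c, hc, t, ht, e, q, s1⟩ := zt h qa lq (TC h (l (conj_mem_cj.2 (mem_zpowers w)))) (conj_mem_of_norm (PY h qa lq hp) hw)
    (cjmul p w w ▸ conj_mem_of_norm (n hp) s) fun k => nr (tr _ k fun q => nq (by simpa [mul_assoc] using conj_mem_of_norm' (n hp) q))
  obtain ⟨a, ha, m⟩ := zz h qa ht ht' e e' s1 s'
  exact (rwc (CP h qa lq hc)).1 (rwq n q ((rwc (CP h qa lq (VC h ha))).1 (rwq n m r)))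
theorem stepB (hg : g ∈ HH) (k : g * v 128 * g⁻¹ ∈ PN) : g ∈ PN := by
  have y := (Pc h qa lq k).resolve_right (ninv h qa lq hg rfl)
  by_cases c : XW ≤ N(V)
  · have := cm_cj1 (inv_mem (lq.norm hg)) (cm_sy y.2 (qa.CQ qa.xC))
    refine inv_mem_iff.1 (thr h qa lq (inv_mem hg) (c ⟨conj_mem_of_norm (le_normalizer (inv_mem hg)) qa.xC.2, ?_⟩))
    simpa [mul_assoc] using this
  obtain ⟨p, hp, e⟩ := allc h qa lq c y (by rw [← cjmul, h.vv, mul_one, mul_inv_cancel]; exact one_mem _) fun q =>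
    absurd ((vQ' h qa (by decide)).1 (by simpa [mul_assoc] using conj_mem_of_norm' (lq.norm hg) q)) (by decide : ¬ 128 < 128)
  have m := mul_mem hp.1 hg
  exact (Subgroup.mul_mem_cancel_left _ hp).1 (XP h qa lq ⟨m, mem_cm1.2 ⟨lq.norm m, by rwa [commutatorElement_def, h.vinv, ← cjcj]⟩⟩)
end CA
end H10.RF
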