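import Cfsg.Agent.H10.RF.E4
import Cfsg.Agent.H17.HT27

/-! The centralizer modulo the extraspecial subgroup. -/

set_option autoImplicit false
set_option linter.unusedSectionVars false
set_option linter.unusedVariables false
set_option maxRecDepth 100000
open Cfsg Subgroup H19 H0 H15
open scoped commutatorElement Pointwise
namespace H10.RF
local notation "cj" => H19.cj
namespace CA
variable {G : Type*} [Group G] [Finite G] {V : Subgroup G} {ρ : G → ℕ} {v : ℕ → G} {A B D E F J N Q X Y : Subgroup G}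
  {a b c d e g k l n q t u w x y : G} {i j : ℕ}
local notation "T" => TG V ρ gT 4
local notation "HH" => C[v 1]
local notation "CC" => N(V) ⊓ C[v 1]
local notation "WW" => VS v 7
local notation "UU" => VS v 5
local notation "LL" => TG V ρ gR 6
local notation "ZZ" => zpowers (v 1)
local notation "KK" => N(V) ⊓ C[v 1] ⊓ cm (VS v 7) V
local notation:max "Ai" n:max i:max => mv (mt ubA dcA (ρ n)) i
local notation "NN" => Q ⊔ zpowers x
set_option quotPrecheck false in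
local notation "YY" => C[v 1] ⊓ cm Q {x}
local notation "PN" => C[v 1] ⊓ N(Q ⊔ zpowers x)
local notation "XW" => C[v 1] ⊓ cm Q {v 128}
local notation "DD" => Q ⊓ C(VS v 5)
open H17.GS (Sim simple_iff)
theorem cmQ (n : g ∈ N(Q)) (k : a * b⁻¹ ∈ Q) (c : g ∈ cm Q {b}) : g ∈ cm Q {a} := by
  simpa using cm_mul1 (le_normalizer k) (mem_cm1.2 ⟨n, cmN n k⟩) c
theorem ckW : ∀ j < 4, cv (M (getP gT j)) 128 < 2 ^ 7 := by decide +kernel
/-- the odd core modulo the extraspecial subgroup -/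
structure BS (v : ℕ → G) (Q B : Subgroup G) (x : G) : Prop where
  l : Q ≤ B
  u : B ≤ Q ⊔ zpowers x
  n : B ⊴ C[v 1]
  o : Oc {2}ᶜ (quo B C[v 1]) = ⊥
/-- the structure of the centralizer -/
structure RS (V : Subgroup G) (ρ : G → ℕ) (v : ℕ → G) (Q : Subgroup G) (x : G) : Prop extends BS v Q (Q ⊔ zpowers x) x where
  s : Sim (quo (Q ⊔ zpowers x) (C[v 1] ⊓ cm Q {x}))
  k : ¬ C[v 1] ⊓ cm Q {x} ⊓ (N(V) ⊓ C[v 1]) ≤ N(V) ⊓ C[v 1] ⊓ cm (VS v 7) V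
  d : ∀ t ∈ TG V ρ gT 4, ρ t = getP gA 12 → ∀ g ∈ C[v 1], g ∈ C[v 1] ⊓ cm Q {x} ∨ ∃ b ∈ C[v 1] ⊓ cm Q {x}, g = t * b
variable (h : IF V ρ v ubA dcA)
include h
theorem TH : T ≤ HH := h.TC mdA
theorem mA (ha : a ∈ N(V)) (hj : j < 16) (e : ρ a = getP gA j) : a ∈ T := h.mT ha (ckA.1 j hj).2.1 (e.trans (ckA.1 j hj).2.2.1)
theorem JV (hO : Oc {2}ᶜ HH = ⊥) (n : J ⊴ HH) (l : V ≤ J) (k : J ≤ N(V)) : V.Normal :=
  h.F mdA hO fun g hg => h.memN mdA ((cj_le_of_mem_norm (n.norm hg) l).trans k)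
theorem frat (n : J ⊴ HH) (l : V ≤ J) (hg : g ∈ HH) : ∃ j ∈ J, j * g ∈ CC := by
  obtain ⟨j, hj, e⟩ := ((h.sG mdA (TH h)).inf_normal n).scj_le (cj_le_of_mem_norm (n.norm hg) l) (h.pg.J g)
  exact ⟨j, hj, h.memN mdA (cj_cj j g V ▸ e.trans (inf_le_left.trans h.TN)), mul_mem (n.le hj) hg⟩
variable (qa : QA V ρ v Q x)
include qa
theorem TX : T ≤ XW := le_inf (TH h) (h.TGle ((h.VT.trans (LK h)).trans ((KX h qa).trans inf_le_right)) fun a ha j hj e =>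
  mem_cm1.2 ⟨qa.TQ h mdA (h.mTG ha hj e), WQ h qa ((cvS h (by decide) ha e (by decide)).2 (ckW j hj))⟩)
theorem sQN : Syl 2 Q (NN) := syl_mk le_sup_left qa.es.pg fun d => by
  rw [relIndex_sup_of_norm (xQ h qa)] at d
  have := d.trans (c3 h qa.toXS ▸ relIndex_dvd_card _ _)
  omega
theorem TNQ (ht : t ∈ T) (k : t ∈ NN) : t ∈ Q := (sQN h qa).mem_of_normal (sup_le le_normalizer (xQ h qa)) k (h.pT.elt ht)
theorem wN : v 128 ∉ NN := fun k => absurd ((vQ' h qa (by decide)).1 (TNQ h qa (h.VT (h.vm _)) k)) (by decide)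
theorem xT : x ∉ T := fun k => xnQ h qa (TNQ h qa k (mem_sup_right (mem_zpowers x)))
theorem NK : NN ≤ KK := KV h qa ▸ le_sup_right
theorem TKL (ht : t ∈ T) (k : t ∈ KK) : t ∈ LL := by
  obtain ⟨a, ha, b, hb, rfl⟩ := qa.TL h mdA ht fun u hu => WQ h qa (k.2.2 u hu)
  exact mul_mem (h.VT ha) (QL' h qa hb)
theorem KL : KK ≤ cm Q LL := cm_sys (qa.LQ ▸ sup_le (cm_sys (fun k hk => ⟨qa.CQ hk.1, fun u hu => WQ h qa (hk.2.2 u hu)⟩)
  (qa.VQ h mdA)) (le_cm fun k hk => qa.CQ hk.1)) (inf_le_left.trans qa.CQ)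
theorem tY (ht : t ∈ T) (e : ρ t = getP gA 12) : t ∉ cm Q {x} := fun k => by
  have n := h.TN ht
  have := h.VT (gt := gT) (m := 4) ((h.eqv _ (mul_mem (mul_mem n qa.n) (inv_mem n)) _ (mul_mem qa.n qa.n)).1
    (h.cjr qa.n (mul_mem qa.n qa.n) n (by rw [h.mul _ qa.n _ qa.n, e, qa.e, ckX.2.2.2.2.2.2.2.1])))
  exact xT h qa (by simpa [mul_assoc, commutatorElement_def] using mul_mem (qa.QT (conj_mem_of_norm' (qa.CQ qa.xC) (mem_cm1.1 k).2)) this)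
theorem LX (n : X ⊴ HH) (l : Q ≤ X) (w : v 128 ∈ X) : LL ≤ X := fun a ha => by_contra fun k => by
  obtain ⟨c, hc, e⟩ := trV h qa ha fun q => k (l q)
  exact k (by simpa [mul_assoc] using n.conj_mem (inv_mem hc.2) ((Subgroup.mul_mem_cancel_right _ w).1 (l e)))
theorem meet (bs : BS v Q B x) (nJ : J ⊴ HH) (l : V ≤ J) (f : ∀ a ∈ T, ρ a = getP gA 1 ∨ ρ a = getP gA 2 → a ∈ J) (n : X ⊴ J)
    (lB : B ≤ X) (ne : ¬ X ≤ B) : v 128 ∈ X := by
  have TQ := qa.TQ h mdA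
  have XB := (n.le.trans nJ.le).trans bs.n.norm
  obtain ⟨a, ha, na, c⟩ := fixcos (A := T ⊓ X) (X := T ⊓ J) (h.pT.infl _) (h.pT.infl _) (le_inf qa.QT (bs.l.trans lB))
    (inf_le_left.trans TQ) (inf_le_left.trans TQ) (norms_inf (norms_of_le inf_le_left) (inf_le_right.trans n.norm)) fun e => by
      have s := (((h.sG mdA (TH h)).inf_normal nJ).inf_normal n).quo XB
      rw [inf_assoc, inf_eq_right.2 n.le, e, quo_eq_bot bs.l] at s
      exact ne ((quo_eq_bot_iff XB).1 (H19.eq_bot_mono ((le_Oc (n.quo B) s.pi'_of_eq_bot).trans (Oc_le_Oc (nJ.quo B))) bs.o))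
  obtain ⟨u, hu, b, hb, rfl⟩ := qa.TL h mdA ha.1 fun u hu => c.2 u ⟨h.VT hu, l hu⟩
  obtain ⟨i, hi, rfl⟩ := h.vs u hu
  have d := (allTo2_iff _ _ _).1 ckV i hi
  simp only [force_eq, band_iff, bimp_iff, Nat.blt_eq] at d
  have k : ∀ j < 16, j = 1 ∨ j = 2 → cv (M (getP gA j)) i < 2 ^ 7 := fun j hj q => by
    obtain ⟨t, ht, e⟩ := exA h hj
    exact (cvS h (by decide) (h.TN ht) e hi).1 (qa.QW.le ⟨cms (mem_cm1.1 ((Subgroup.mul_mem_cancel_right _ (le_cm1 (TQ ht) hb)).1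
      (mem_cm1.2 ⟨c.1, c.2 t ⟨ht, f t ht (by rcases q with rfl | rfl; exacts [.inl e, .inr e])⟩⟩))).2, cmN (h.TN ht) hu⟩)
  have i1 := d.2.2 ⟨k 1 (by decide) (.inl rfl), k 2 (by decide) (.inr rfl)⟩
  have i2 : ¬ i < 128 := fun q => na (mul_mem ((vQ' h qa hi).2 q) hb)
  have := mul_mem ((Subgroup.mul_mem_cancel_right _ (lB (bs.l hb))).1 ha.2) (lB (bs.l ((vQ' h qa (i := i ^^^ 128)
    (Nat.xor_lt_two_pow (n := 11) hi (by decide))).2 ((by decide +kernel : ∀ i < 256, ¬ i < 128 → i ^^^ 128 < 128) i i1 i2))))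
  rwa [← h.vx, ← Nat.xor_assoc, Nat.xor_self, Nat.zero_xor] at this
theorem meetH (bs : BS v Q B x) (n : X ⊴ HH) (lB : B ≤ X) (ne : ¬ X ≤ B) : v 128 ∈ X :=
  meet h qa bs (.refl _) (h.VT.trans (TH h)) (fun _ ha _ => TH h ha) n lB ne
variable (lq : LE Q (v 1))
include lq
theorem two (hg : g ∈ HH) (hl : l ∈ LL) (hk : k ∈ LL) (n1 : l ∉ Q) (n2 : k ∉ Q) (n3 : l * k ∉ Q) (c1 : g ∈ cm Q {l}) (c2 : g ∈ cm Q {k}) :
    g ∈ N(V) := by
  obtain ⟨c, hc, e⟩ := trV h qa hl n1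
  have cQ := qa.CQ hc
  have m := conj_mem_of_norm (le_normalizer hc.2) hg
  obtain ⟨q, hq, u, hu, eu⟩ := (mem_sup_of_norm (qa.VQ h mdA)).1 ((sup_comm V Q).le (qa.LQ.ge (conj_mem_of_norm (CL h hc) hk)))
  obtain ⟨i, hi, rfl⟩ := h.vs u hu
  have lQ := qa.CQ (LC h (conj_mem_of_norm (CL h hc) hl))
  have := two' h qa lq ⟨m, cmQ (lq.norm m) (by
      rw [← h.vinv, ← mul_inv_rev, inv_mem_iff]; exact e) (cm_cj1 cQ c1)⟩ hi (by_contra fun i1 => by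
    by_cases i2 : i < 128
    · exact n2 (by simpa [mul_assoc] using conj_mem_of_norm' cQ (show c * k * c⁻¹ ∈ Q from eu ▸ mul_mem hq ((vQ' h qa hi).2 i2)))
    have := mul_mem (mul_mem (conj_mem_of_norm lQ hq) e) ((vQ' h qa (i := 128 ^^^ i) (Nat.xor_lt_two_pow (n := 11) (by decide) hi)).2
      ((by decide +kernel : ∀ i < 256, ¬ i < 128 → 128 ^^^ i < 128) i (by omega) i2))
    rw [h.vx, mul_assoc _ (_ * v 128), mul_assoc _ (v 128), ← mul_assoc (v 128), h.vv, one_mul, ← mul_assoc, inv_mul_cancel_right,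
      mul_assoc, ← eu, ← cjmul] at this
    exact n3 (by simpa [mul_assoc] using conj_mem_of_norm' cQ this))
    (cjcm _ (v i) ▸ mul_mem (QL' h qa (mem_cm1.1 (cmQ (lq.norm m) (by rw [eu]; simpa using hq)
      (cm_cj1 cQ c2))).2) (h.VT hu))
  simpa [mul_assoc] using conj_mem_of_norm' (le_normalizer hc.1) this
theorem exB : ∃ B, BS v Q B x := by
  have nQ : Q ⊴ HH := ⟨qa.es.le_cent, lq.norm⟩
  have LQ := (LC h).trans qa.CQ
  have n := qpre_normal nQ (Oc_normal {2}ᶜ _)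
  have o := Oc_pi {2}ᶜ (quo Q HH)
  have l : qpre Q (Oc {2}ᶜ (quo Q HH)) ≤ CC := qpre_le (QC h qa) (gen2 (E := quo Q LL) (fun a ha => by
      obtain ⟨a, k, rfl⟩ := mem_im.1 ha
      exact qsq (WQ h qa (Lsq h k))) (by have := cq (QL' h qa) LQ; rw [cL h, qa.cQ] at this; omega)
    ((quo_mono _ ((LC h).trans inf_le_right)).trans (Oc_norm _ _)) o fun a ha b hb a1 b1 ab g hg => by
      obtain ⟨a, k1, rfl⟩ := mem_im.1 ha
      obtain ⟨b, k2, rfl⟩ := mem_im.1 hb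
      obtain ⟨g, k, rfl⟩ := mem_im.1 (Oc_le _ _ hg.1.1)
      exact mem_im_of ⟨two h qa lq k k1 k2 (_root_.mt qmk_eq_one.2 a1) (_root_.mt qmk_eq_one.2 b1)
        (fun q => ab ((map_mul _ a b).symm.trans (qmk_eq_one.2 q))) (qcm.1 hg.1.2) (qcm.1 hg.2), k⟩)
  refine ⟨_, le_qpre _, fun b hb => KN h qa ⟨l hb, CW h (l hb), fun u hu => qa.QW.le ⟨quo_eq_bot_of_pi (H := _ ⊓ V)
    (inf_le_right.trans (qa.VQ h mdA)) (h.pg.infr _) (o.of_le ((quo_mono _ inf_le_left).trans (quo_qpre _).le))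
      ⟨cms (cmN (n.norm (VC h hu).2) hb), cmN (l hb).1 hu⟩, cmN (l hb).1 hu⟩⟩ (mem_sup_left (pow_q (qpre_le_norm _) hb)) ?_, n, oddq nQ⟩
  rw [← card_quo (qpre_le_norm _), quo_qpre]
  exact odd_of_piG o
theorem red (hO : Oc {2}ᶜ HH = ⊥) : V.Normal ∨ RS V ρ v Q x := by
  obtain ⟨B, bs⟩ := exB h qa lq
  have VH := h.VT.trans (TH h)
  have BV := bs.u.trans ((NK h qa).trans (inf_le_left.trans inf_le_left))
  by_cases c : HH ≤ B
  · exact .inl (JV h hO (.refl _) VH (c.trans BV))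
  obtain ⟨J, ⟨nJ, BJ, ne⟩, mn⟩ := exists_minimal_of_wellFoundedLT (fun X => X ⊴ HH ∧ B ≤ X ∧ ¬ X ≤ B) ⟨_, .refl _, bs.n.le, c⟩
  have wJ := meetH h qa bs nJ BJ ne
  have LJ := LX h qa nJ (bs.l.trans BJ) wJ
  have VJ := h.VT.trans LJ
  have JB := nJ.le.trans bs.n.norm
  have LB := LJ.trans JB
  have sT := (h.sG mdA (TH h)).inf_normal nJ
  have wB : v 128 ∉ B := fun k => wN h qa (bs.u k)
  by_cases k : J ⊓ (CC) ≤ KK
  · have l : B ⊔ LL ≤ N(V) := sup_le BV h.TN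
    rw [le_antisymm (fun t ht => TKL h qa ht.1 (k ⟨ht.2, TC h ht.1⟩)) (le_inf (LT h) LJ)] at sT
    refine .inl (JV h hO nJ VJ (((quo_le_quo_iff JB LB).1 (zsyl (nJ.quo B) (sT.quo JB) ?_ bs.o).le).trans l))
    have l2 : qpre B (quo B J ⊓ N(quo B LL)) ≤ J := qpre_le BJ inf_le_left
    rw [← quo_qpre (_ ⊓ _), quo_cents_iff (qpre_le_norm _) LB]
    exact (comm_le_cm fun a ha => KL h qa (k ⟨l2 ha, h.memN mdA ((cj_le_of_mem_norm (norms_of_quo (qpre_le_norm _) LB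
      ((quo_qpre _).le.trans inf_le_right) ha) (h.VT.trans le_sup_right)).trans l), nJ.le (l2 ha)⟩)).trans bs.l
  have nN : J ⊓ (CC) ⊴ CC := nJ.inf_le inf_le_right
  have lN := le_inf LJ (LC h)
  obtain ⟨t, ht, et⟩ := exA h (j := 12) (by decide)
  have xJ : x ∈ J := by
    rcases s6c h nN lN k ht et qa.xC with q | ⟨b, hb, e⟩
    · exact q.1
    refine odd_mem (n := 3) ?_ (qa.o ▸ one_mem _) (by decide)
    have := mul_mem (mul_mem (VJ ((h.ker (mul_mem (h.TN ht) (h.TN ht))).1 (by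
      rw [h.mul _ (h.TN ht) _ (h.TN ht), et, ckX.2.2.2.2.2.2.2.2.1]))) (conj_mem_of_norm' (nJ.norm (TH h ht)) hb.1)) hb.1
    rw [e]; simpa [mul_assoc] using this
  obtain ⟨a, ha, pa, na⟩ : ∃ a ∈ J ⊓ (CC), PiE {2} a ∧ ⁅a, v 128⁆ ∉ Q := by
    obtain ⟨z, hz, ez⟩ := exA h (j := 2) (by decide)
    obtain ⟨c, hc, ec⟩ := cjx h (ckC.2.1 0 (by decide)) (h.TN hz) ez
    have m := nN.conj_mem hc (s6z h nN lN k (h.TN hz) ez)
    exact ⟨_, m, (h.pT.elt hz).e_conj c, fun q => absurd ((cvS h (k := 7) (by decide) m.2.1 ec (by decide)).1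
      (qa.QW.le ⟨q, cmN m.2.1 (h.vm _)⟩)) ckC.2.2.2.2.2.2.2.2.not_gt⟩
  have sm : Sim (quo B J) := ⟨simple_iff.2 ⟨fun e => ne ((quo_eq_bot_iff JB).1 e), fun M l1 l2 => or_iff_not_imp_left.2 fun m => by
    have n := qpre_normal (bs.n.of_le BJ nJ.le) ⟨l1, l2⟩
    have l := core_le.trans n.le (b := qpre B M) (a := core HH (qpre B M))
    refine le_antisymm l1 ((quo_le_iff JB).2 ((mn ⟨⟨l.trans nJ.le, fun g hg => core_nm (le_normalizer hg) (.inr hg)⟩,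
      le_core (le_qpre _) bs.n.norm, fun q => wB (q (mem_core.2 fun r hr => mem_cj_inv.1 ?_))⟩ l).trans core_le))
    have e := bs.n.cj_eq (inv_mem hr)
    exact meet h qa bs nJ VJ (fun a ha e => e.elim (fun e => (s6j h nN lN k (.inr ckA.2.1) (h.TN ha) e).1)
      fun e => (s6z h nN lN k (h.TN ha) e).1) (by have := n.J r⁻¹; rwa [nJ.cj_eq (inv_mem hr)] at this)
        (e.ge.trans (cj_mono _ (le_qpre _))) fun q => m
        (by rw [← quo_qpre M]; exact quo_eq_bot (cj_le_cj.1 (q.trans e.ge)))⟩, fun q => na (TNQ h qa (h.VT (cmN ha.2.1 (h.vm _)))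
      (bs.u ((ab_quo_iff JB).1 q (commutator_mem_commutator ha.1 wJ))))⟩
  have e : B = NN := le_antisymm bs.u (sup_le bs.l (zpowers_le.2 (by_contra fun nx => by
    obtain rfl : Q = B := le_antisymm bs.l fun b hb => by
      obtain ⟨q, hq, y, hy, rfl⟩ := (mem_sup_of_norm (xQ h qa)).1 (bs.u hb)
      have m := (Subgroup.mul_mem_cancel_left _ (bs.l hq)).1 hb
      rcases z3 qa.o hy with rfl | rfl | rfl
      exacts [mul_mem hq (one_mem _), absurd m nx, absurd (odd_mem (n := 3) m (qa.o ▸ one_mem _) (by decide)) nx]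
    have PQ := PQ h qa lq
    have QP : Q ≤ PN := (QC h qa).trans (CP h qa lq)
    have NP := (NK h qa).trans (inf_le_left.trans (CP h qa lq))
    have NJ : NN ≤ J := sup_le BJ (zpowers_le.2 xJ)
    have wT : v 128 ∈ T := h.VT (h.vm _)
    have z : qmk Q ⟨_, JB wJ⟩ ∈ quo Q (T ⊓ J) := mem_im_of ⟨wT, wJ⟩
    have ns : ∀ Y ≤ quo Q (PN), quo Q (NN) ≤ Y → qmk Q ⟨_, JB wJ⟩ ∈ Y → ¬ Sim Y := fun Y l1 l2 m s =>
      ((simple_iff.1 s.simple).2 _ l2 (l1.trans (quo_norms inf_le_right))).elim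
        (fun e => nx ((quo_eq_bot_iff (NP.trans PQ)).1 e (mem_sup_right (mem_zpowers x))))
        fun e => wN h qa ((qmem le_sup_left (NP.trans PQ)).1 (e.ge m))
    rcases H17.HT.holt_rel (P := quo Q (PN)) sm (fun l => ns _ l (quo_mono _ NJ) (mem_im_of wJ) sm) (sT.quo JB) z (fun g hg => by
        obtain ⟨g, k, rfl⟩ := mem_im.1 hg
        exact qcm.2 (TX h qa k.1).2) (qsq (h.vv 128 ▸ one_mem _)) (fun g hg => by
        obtain ⟨g, k, rfl⟩ := mem_im.1 hg.1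
        exact mem_im_of (XP h qa lq ⟨nJ.le k, qcm.1 hg.2⟩)) (fun g hg q => by
        obtain ⟨g, k, rfl⟩ := mem_im.1 hg
        rw [← map_inv, ← map_mul, ← map_mul] at q
        exact ⟨_, ⟨hg, mem_im_of (stepB h qa lq (nJ.le k) ((qmem QP PQ).1 q))⟩, rfl⟩) with ⟨-, e⟩ | ⟨_, -, -, -, -, s⟩
    · have m : qmk Q ⟨a, JB ha.1⟩ ∈ quo Q J ⊓ quo Q (PN) := ⟨mem_im_of ha.1, mem_im_of (CP h qa lq ha.2)⟩
      exact na (mem_cm1.1 (TX h qa (sT.mem_of_norm ha.1 pa (norms_of_quo' (zpowers_le.2 (JB ha.1)) (inf_le_right.trans JB)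
        (le_inf qa.QT BJ) ((quo_zpowers (JB ha.1)).le.trans (zpowers_le.2 (e.le m).2)) (mem_zpowers a))).1).2).2
    · exact ns _ inf_le_right (le_inf (quo_mono _ NJ) (quo_mono _ NP)) ⟨mem_im_of wJ, mem_im_of (CP h qa lq (TC h wT))⟩ s)))
  subst e
  have nY : YY ⊴ HH := ⟨inf_le_left, (le_inf le_rfl bs.n.norm).trans (PY h qa lq)⟩
  have JY := (mn ⟨nJ.inf nY, le_inf BJ ((NK h qa).trans (KY h qa)), fun q => wB (q ⟨wJ, KY h qa (LK h (h.VT (h.vm _)))⟩)⟩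
    inf_le_left).trans inf_le_right
  have d : ∀ t ∈ T, ρ t = getP gA 12 → ∀ g ∈ HH, g ∈ J ∨ ∃ b ∈ J, g = t * b := fun t ht et g hg => by
    obtain ⟨j, hj, c⟩ := frat h nJ VJ hg
    exact (s6c h nN lN k ht et c).imp (fun q => (Subgroup.mul_mem_cancel_left _ hj).1 q.1) fun ⟨b, hb, e⟩ =>
      ⟨_, mul_mem (conj_mem_of_norm' (nJ.norm (TH h ht)) (inv_mem hj)) hb.1, by rw [← inv_mul_cancel_left j g, e]; group⟩
  obtain rfl : J = YY := le_antisymm JY fun y hy => (d t ht et y hy.1).elim id fun ⟨b, hb, e⟩ =>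
    absurd ((Subgroup.mul_mem_cancel_right _ (JY hb)).1 (e ▸ hy)).2 (tY h qa ht et)
  exact .inr ⟨bs, sm, k, d⟩
end CA
end H10.RF
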