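import Cfsg.Agent.H10.RF.C
import Cfsg.Agent.H10.RF.B3
import Cfsg.Prelude.Def_JankoFourType

/-! The two cases of the recognition theorem for `2 ^ 11 . M24`. -/

set_option autoImplicit false
set_option linter.unusedSectionVars false
set_option linter.unusedVariables false
open Cfsg Subgroup H19 H0 H15
namespace H10.RF
universe u

/-- the code module -/
def CODE : Prop := ∀ {G : Type u} [Group G] [Finite G] (V : Subgroup G) (ρ : G → ℕ) (v : ℕ → G), IF V ρ v ubB dcB →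
  Oc {2}ᶜ C[v 1] = ⊥ → V.Normal ∨ Spor.IsoCo1 G
/-- the cocode module -/
def COC : Prop := ∀ {G : Type u} [Group G] [Finite G] (V : Subgroup G) (ρ : G → ℕ) (v : ℕ → G), IF V ρ v ubA dcA →
  Oc {2}ᶜ C[v 1] = ⊥ → V.Normal ∨ IsOfJankoFourType G ∨ (IsFi24' G ∧ ¬ C[v 2] ≤ N(V))
theorem main (h1 : CODE.{u}) (h2 : COC.{u}) {G : Type u} [Group G] [Finite G] (V : Subgroup G) (hV : IsElementaryAbelian 2 V)
    (hcard : Nat.card V = 2 ^ 11) (hC : C(V) = V) (hM : Spor.IsoM24 (Quo V))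
    (hO : ∀ T : Sylow 2 N(V), ∀ s : N(V), s ∈ (T : Subgroup N(V)) → orderOf s = 2 →
      (∀ y ∈ (T : Subgroup N(V)), y * s = s * y) → pPrimeCore 2 C[(s : G)] = ⊥) :
    V.Normal ∨ IsOfJankoFourType G ∨ IsFi24' G ∨ Spor.IsoCo1 G := by
  obtain ⟨ρ, h⟩ := exIF0 (abelem2_iff.1 hV) hcard hC hM
  have k : ∀ {v ub dc ty dp d0 fl}, IF V ρ v ub dc → MD ub dc ty dp d0 fl → Oc {2}ᶜ C[v 1] = ⊥ := fun {v _ _ _ _ _ _} h m => by
    obtain ⟨S, e⟩ := h.sT.exists_sylow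
    have mem : ∀ y : N(V), y ∈ (S : Subgroup N(V)) ↔ (y : G) ∈ TG V ρ gT 4 := fun y => by rw [← e]; simp
    rw [← pPrimeCore_map_eq Nat.prime_two, hO S ⟨v 1, h.VN (h.vm 1)⟩ ((mem _).2 (h.VT (h.vm 1)))
      ((orderOf_coe _).symm.trans (orderOf_inv2 (h.s1 m) (h.vv 1))) fun y hy => Subtype.ext (mem_cent1.1 (h.TC m ((mem y).1 hy))),
      Subgroup.map_bot]
  rcases classify h with ⟨v, h⟩ | ⟨v, h⟩
  · exact (h2 V ρ v h (k h mdA)).imp_right (Or.imp_right fun q => .inl q.1)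
  · exact (h1 V ρ v h (k h mdB)).imp_right fun q => .inr (.inr q)
end H10.RF
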